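import Cfsg.Agent.J4Ten31.SearchSound

/-!
Every elementary abelian subgroup of order `2 ^ 10` of the normaliser outside `V` is conjugate to
the standard one.
-/

set_option autoImplicit false

namespace CfsgLib.J4Ten31

open Cfsg
open CfsgLib.Mathieu.Code (code cmpC idC grpOf spanR code_mul code_one code_injective)

/-- The representative of the fixed syndromes of a generator off the fixed syndromes of all. -/
def liftRep : List ℕ := [260, 257, 18, 20]

/-- The value of a lift at a generator. -/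
def liftVal (c i : ℕ) : ℕ := if c.testBit i then liftRep.getD i 0 else 0

/-- The code of a generator. -/
def genC (i : ℕ) : ℕ := (eList.getD i (0, 0)).1

theorem fixed_ok :
    (Golay.spanList ((eList.map Prod.fst).foldl (fun W c => fixStep c W) evenBasis)).all
      (fun y => wList.contains y) = true := by decide +kernel

theorem gen_fixed_ok : (List.range 4).all (fun i => (Golay.spanList (fixStep (genC i) evenBasis)).all
      fun y => wList.contains y || wList.contains (y ^^^ liftRep.getD i 0)) = true := by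
  decide +kernel

theorem lift_ok : (List.range 16).all (fun c =>
      !((List.range 4).all fun i => (List.range 4).all fun j =>
        liftVal c i ^^^ act (genC i) (liftVal c j) == liftVal c j ^^^ act (genC j) (liftVal c i)) ||
      [0, 9].any fun w => vecOK w && (List.range 4).all fun i =>
        wList.contains (w ^^^ act (genC i) w ^^^ liftVal c i)) = true := by decide +kernel

theorem liftRep_ok : (List.range 4).all (fun i => vecOK (liftRep.getD i 0) &&
    eCodes.contains (genC i)) = true := by decide +kernel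

theorem genC_spec {i : ℕ} (hi : i < 4) :
    vecOK (liftRep.getD i 0) = true ∧ ∃ s : ↥Cfsg.M24, s ∈ eSub ∧
      code (s : Equiv.Perm GolayPt) = genC i := by
  have h := List.all_eq_true.1 liftRep_ok i (List.mem_range.2 hi)
  simp only [Bool.and_eq_true, List.contains_eq_mem, decide_eq_true_eq] at h
  obtain ⟨g, hg⟩ := (Mathieu.Code.spanSpec _ eList_ok).exists_code _ h.2
  have hgE := ((Mathieu.Code.spanSpec _ eList_ok).mem_iff g).2 (hg ▸ h.2)
  exact ⟨h.1, ⟨g, grpOf_eList_le hgE⟩, Subgroup.mem_subgroupOf.2 hgE, hg⟩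

theorem genC_act {i : ℕ} (hi : i < 4) (a b : ℕ) :
    act (genC i) (a ^^^ b) = act (genC i) a ^^^ act (genC i) b := by
  obtain ⟨-, s, -, hs⟩ := genC_spec hi
  rw [← hs, act_xor]

theorem mem_wList_of_fixed {y : ℕ} (hy : vecOK y = true)
    (hfix : ∀ s ∈ eSub, act (code (s : Equiv.Perm GolayPt)) y = y) : y ∈ wList := by
  have key : ∀ (L : List ℕ) (W : List ℕ), (∀ c ∈ L, ∃ i < 4, genC i = c) → Sp1 W y →
      Sp1 (L.foldl (fun W c => fixStep c W) W) y := by
    intro L
    induction L with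
    | nil => intro W _ h; exact h
    | cons c L ih =>
      intro W hL h
      obtain ⟨i, hi, rfl⟩ := hL c List.mem_cons_self
      obtain ⟨-, s, hs, e⟩ := genC_spec hi
      refine ih _ (fun d hd => hL d (List.mem_cons_of_mem _ hd)) ?_
      rw [← e]
      exact fixStep_spec h (hfix s hs)
  have hm := sp1_mem (key (eList.map Prod.fst) evenBasis (by
    simp [eList, genC]
    exact ⟨⟨0, by norm_num, rfl⟩, ⟨1, by norm_num, rfl⟩, ⟨2, by norm_num, rfl⟩,
      ⟨3, by norm_num, rfl⟩⟩) (sp1_even hy))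
  simpa using List.all_eq_true.1 fixed_ok y hm

theorem exists_reduced {i y : ℕ} (hi : i < 4) (hy : vecOK y = true) (hfix : act (genC i) y = y) :
    ∃ w ∈ wList, y ^^^ w = 0 ∨ y ^^^ w = liftRep.getD i 0 := by
  obtain ⟨-, s, -, hs⟩ := genC_spec hi
  have hsp : Sp1 (fixStep (genC i) evenBasis) y := by
    rw [← hs] at hfix ⊢
    exact fixStep_spec (sp1_even hy) hfix
  have h := List.all_eq_true.1 (List.all_eq_true.1 gen_fixed_ok i (List.mem_range.2 hi)) y
    (sp1_mem hsp)
  simp only [Bool.or_eq_true, List.contains_eq_mem, decide_eq_true_eq] at h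
  rcases h with h | h
  · exact ⟨y, h, Or.inl (Nat.xor_self y)⟩
  · exact ⟨_, h, Or.inr (by rw [← Nat.xor_assoc, Nat.xor_self, Nat.zero_xor])⟩

/-- The Sylow subgroup of `M24`. -/
def sSub : Subgroup ↥Cfsg.M24 := (grpOf pcS).subgroupOf Cfsg.M24

theorem card_sSub : Nat.card sSub = 1024 := by
  rw [sSub, Nat.card_congr (Subgroup.subgroupOfEquivOfLe grpOf_pcS_le).toEquiv,
    (Mathieu.Code.spanSpec _ pcS_ok).card]
  rfl

theorem exists_conj_sSub {P : Subgroup ↥Cfsg.M24} (hP : IsPGroup 2 P) :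
    ∃ s : ↥Cfsg.M24, ∀ x ∈ P, s * x * s⁻¹ ∈ sSub := by
  classical
  haveI : Fact (Nat.Prime 2) := ⟨Nat.prime_two⟩
  obtain ⟨S, hPS⟩ := hP.exists_le_sylow
  have hc : Nat.card sSub = 2 ^ (Nat.card ↥Cfsg.M24).factorization 2 := by
    rw [card_sSub, Mathieu.card_M24,
      Nat.factorization_def _ Nat.prime_two]
    have h : (244823040 : ℕ) = 2 ^ 10 * 239085 := by norm_num
    rw [show padicValNat 2 244823040 = 10 by
      rw [h, padicValNat.mul (by norm_num) (by norm_num), padicValNat.prime_pow,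
        padicValNat.eq_zero_of_not_dvd (by norm_num)]]
    norm_num
  obtain ⟨s, hs⟩ := MulAction.exists_smul_eq ↥Cfsg.M24 S (Sylow.ofCard sSub hc)
  refine ⟨s, fun x hx => ?_⟩
  have : MulAut.conj s • x ∈ ((Sylow.ofCard sSub hc : Sylow 2 ↥Cfsg.M24) : Subgroup ↥Cfsg.M24) := by
    rw [← hs, Sylow.coe_subgroup_smul]
    exact Subgroup.smul_mem_pointwise_smul _ _ _ (hPS hx)
  exact this

namespace Cfg

variable {G : Type*} [Group G] [Finite G] (C : Cfg G)

theorem normalizer_conj_vec {v : G} (hv : v ∈ C.V) {b : ℕ} :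
    v * vec C.M b * v⁻¹ = vec C.M b := by
  rw [C.M.comm hv (vec_mem C.M b), mul_inv_cancel_right]

theorem conj_pair {y w : ℕ} (hy : vecOK y = true) (hw : vecOK w = true) (s : ↥Cfsg.M24) :
    vec C.M w * (vec C.M y * C.lift s) * (vec C.M w)⁻¹ =
      vec C.M (w ^^^ y ^^^ act (code (s : Equiv.Perm GolayPt)) w) * C.lift s := by
  have hi : (vec C.M w)⁻¹ = vec C.M w := inv_eq_of_mul_eq_one_right (C.M.sq _ (vec_mem C.M w))
  rw [hi, ← mul_assoc (vec C.M w) (vec C.M y), ← vec_mul]
  conv_lhs => rw [show vec C.M w = vec C.M w * C.lift 1 by rw [C.lift_one, mul_one]]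
  rw [C.lift_one, mul_one]
  have := C.mul_rule (w ^^^ y) hw s 1
  rwa [C.lift_one, mul_one, mul_one] at this

theorem mem_A0_vec {w : ℕ} (h : w ∈ wList) : vec C.M w ∈ C.A0 :=
  ⟨w, h, 1, one_mem _, by rw [C.lift_one, mul_one]⟩

/-- The image in `M24` of a subgroup of the normaliser. -/
def img (A : Subgroup G) : Subgroup ↥Cfsg.M24 :=
  (A.subgroupOf (Subgroup.normalizer (C.V : Set G))).map C.M.Φ

theorem mem_img {A : Subgroup G} {s : ↥Cfsg.M24} :
    s ∈ C.img A ↔ ∃ m : ↥(Subgroup.normalizer (C.V : Set G)), (m : G) ∈ A ∧ C.M.Φ m = s := by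
  simp [img, Subgroup.mem_map, Subgroup.mem_subgroupOf]

theorem exists_mem_over {A : Subgroup G} {s : ↥Cfsg.M24} (h : s ∈ C.img A) :
    ∃ y, vecOK y = true ∧ vec C.M y * C.lift s ∈ A := by
  obtain ⟨m, hm, rfl⟩ := C.mem_img.1 h
  obtain ⟨y, s', hy, he, rfl⟩ := C.exists_decomp m.2
  exact ⟨y, hy, he ▸ hm⟩

theorem card_le_of_img {A : Subgroup G} (hA : A ≤ Subgroup.normalizer (C.V : Set G))
    (W : Finset ℕ) (hW : ∀ y, vecOK y = true → vec C.M y ∈ A → y ∈ W) :
    Nat.card A ≤ W.card * Nat.card (C.img A) := by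
  classical
  have hdec : ∀ a : A, ∃ p : {y // y ∈ W} × ↥(C.img A), ∃ y0 : ℕ,
      vecOK y0 = true ∧ (a : G) = vec C.M p.1.1 * (vec C.M y0 * C.lift p.2.1) ∧
        y0 = Classical.epsilon (fun y => vecOK y = true ∧ vec C.M y * C.lift p.2.1 ∈ A) := by
    intro a
    obtain ⟨y, s, hy, he, hs⟩ := C.exists_decomp (hA a.2)
    have hsI : s ∈ C.img A := C.mem_img.2 ⟨⟨a, hA a.2⟩, a.2, hs.symm⟩
    have h0 := Classical.epsilon_spec (C.exists_mem_over hsI)
    set y0 := Classical.epsilon (fun y => vecOK y = true ∧ vec C.M y * C.lift s ∈ A)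
    have hmem : vec C.M (y ^^^ y0) ∈ A := by
      have h1 := mul_mem a.2 (inv_mem h0.2)
      rw [he, mul_inv_rev, ← mul_assoc, mul_assoc (vec C.M y), mul_inv_cancel, mul_one,
        inv_eq_of_mul_eq_one_right (C.M.sq _ (vec_mem C.M y0)), ← vec_mul] at h1
      exact h1
    refine ⟨⟨⟨_, hW _ (vec_xor hy h0.1) hmem⟩, ⟨s, hsI⟩⟩, y0, h0.1, ?_, rfl⟩
    rw [he, ← mul_assoc, ← vec_mul, Nat.xor_assoc, Nat.xor_self, Nat.xor_zero]
  choose f y0 hy0 hf hy0e using hdec
  refine le_trans (Nat.card_le_card_of_injective f fun a b e => Subtype.ext ?_) ?_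
  · rw [hf a, hf b, hy0e a, hy0e b, e]
  · rw [Nat.card_prod, Nat.card_eq_fintype_card, Fintype.card_coe]

theorem exists_conj_A0 {A : Subgroup G} (hel : Cfsg.IsElementaryAbelian 2 A)
    (hcard : Nat.card A = 2 ^ 10) (hA : A ≤ Subgroup.normalizer (C.V : Set G)) (hAV : ¬ A ≤ C.V) :
    ∃ m ∈ Subgroup.normalizer (C.V : Set G), A.map (MulAut.conj m).toMonoidHom = C.A0 := by
  classical
  have hsqA : ∀ a ∈ A, a * a = 1 := fun a ha => by
    have := hel.2 a ha
    rwa [pow_two] at this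
  have hP : IsPGroup 2 (C.img A) := by
    intro s
    obtain ⟨m, hm, he⟩ := C.mem_img.1 s.2
    refine ⟨1, Subtype.ext ?_⟩
    rw [SubmonoidClass.coe_pow, pow_one, ← he, ← map_pow, pow_two]
    rw [show m * m = 1 from Subtype.ext (hsqA _ hm), map_one]
    rfl
  obtain ⟨s, hs⟩ := exists_conj_sSub hP
  set m1 := C.lift s
  set B := A.map (MulAut.conj m1).toMonoidHom with hBdef
  have hinj : Function.Injective (MulAut.conj m1).toMonoidHom := (MulAut.conj m1).injective
  have hBN : B ≤ Subgroup.normalizer (C.V : Set G) := by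
    rintro _ ⟨a, ha, rfl⟩
    exact mul_mem (mul_mem (C.lift_mem s) (hA ha)) (inv_mem (C.lift_mem s))
  have hBcard : Nat.card B = 2 ^ 10 := by rw [hBdef, Subgroup.card_map_of_injective hinj, hcard]
  have hsqB : ∀ b ∈ B, b * b = 1 := by
    rintro _ ⟨a, ha, rfl⟩
    rw [← map_mul, hsqA a ha, map_one]
  have hcommB : ∀ a ∈ B, ∀ b ∈ B, a * b = b * a := fun a ha b hb =>
    calc a * b = (a * b)⁻¹ := (inv_eq_of_mul_eq_one_right (hsqB _ (mul_mem ha hb))).symm
      _ = b * a := by
        rw [mul_inv_rev, inv_eq_of_mul_eq_one_right (hsqB a ha),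
          inv_eq_of_mul_eq_one_right (hsqB b hb)]
  let X : Subgroup (Equiv.Perm GolayPt) := (C.img B).map Cfsg.M24.subtype
  have hmemX : ∀ g, g ∈ X ↔ ∃ hg : g ∈ Cfsg.M24, ⟨g, hg⟩ ∈ C.img B := fun g => by
    simp [X, Subgroup.mem_map]
  have himg : ∀ x, x ∈ C.img B → x ∈ sSub ∧ x * x = 1 := by
    intro x hx
    obtain ⟨m, hm, rfl⟩ := C.mem_img.1 hx
    refine ⟨?_, ?_⟩
    · obtain ⟨a, ha, e⟩ := hm
      have := hs _ (C.mem_img.2 ⟨⟨a, hA ha⟩, ha, rfl⟩)
      have hm' : m = C.κ s * ⟨a, hA ha⟩ * (C.κ s)⁻¹ := Subtype.ext e.symm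
      rwa [hm', map_mul, map_mul, map_inv, C.sec]
    · rw [← map_mul, show m * m = 1 from Subtype.ext (hsqB _ hm), map_one]
  let W : Finset ℕ := ((List.range 4096).filter fun y => vecOK y).toFinset.filter
    fun y => vec C.M y ∈ B
  have hWmem : ∀ y, y ∈ W ↔ vecOK y = true ∧ vec C.M y ∈ B := fun y => by
    simp only [W, Finset.mem_filter, List.mem_toFinset, List.mem_filter, List.mem_range]
    exact ⟨fun h => ⟨h.1.2, h.2⟩, fun h => ⟨⟨(vecOK_iff.1 h.1).1, h.1⟩, h.2⟩⟩
  have hfix : ∀ x, x ∈ C.img B → ∀ y ∈ W, act (code (x : Equiv.Perm GolayPt)) y = y := by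
    intro x hx y hy
    obtain ⟨hy1, hy2⟩ := (hWmem y).1 hy
    obtain ⟨m, hm, rfl⟩ := C.mem_img.1 hx
    have h := conj_vec C.M m hy1
    rw [hcommB _ hm _ hy2, mul_inv_cancel_right] at h
    exact (vec_inj C.M hy1 (vec_act _ hy1) h).symm
  have hXcard : Nat.card X = Nat.card (C.img B) :=
    Subgroup.card_map_of_injective Subtype.val_injective
  have hbig : 1024 ≤ W.card * Nat.card X := by
    have := C.card_le_of_img hBN W fun y h1 h2 => (hWmem y).2 ⟨h1, h2⟩
    rw [hBcard] at this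
    rwa [hXcard]
  have hXne : X ≠ ⊥ := by
    intro h
    refine hAV fun a ha => ?_
    have hb : (MulAut.conj m1).toMonoidHom a ∈ B := ⟨a, ha, rfl⟩
    have hx : C.M.Φ ⟨_, hBN hb⟩ = 1 := by
      have : ((C.M.Φ ⟨_, hBN hb⟩ : ↥Cfsg.M24) : Equiv.Perm GolayPt) ∈ X :=
        (hmemX _).2 ⟨_, C.mem_img.2 ⟨⟨_, hBN hb⟩, hb, rfl⟩⟩
      rw [h, Subgroup.mem_bot] at this
      exact Subtype.ext this
    have hv := (C.M.mem_ker _).1 hx
    have hn := Subgroup.inv_mem _ (C.lift_mem s)
    have := (Subgroup.mem_normalizer_iff.1 hn _).1 hv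
    simpa [m1, mul_assoc] using this
  have hX := unique_candidate X W (fun g hg => by
      obtain ⟨hgM, hg'⟩ := (hmemX g).1 hg
      exact congrArg Subtype.val (himg _ hg').2) hXne
    (fun g hg => by
      obtain ⟨hgM, hg'⟩ := (hmemX g).1 hg
      exact (himg _ hg').1) (fun y hy => ((hWmem y).1 hy).1)
    (fun g hg y hy => by
      obtain ⟨hgM, hg'⟩ := (hmemX g).1 hg
      exact hfix _ hg' y hy) hbig
  have himgB : ∀ x : ↥Cfsg.M24, x ∈ C.img B ↔ x ∈ eSub := fun x => by
    rw [mem_eSub, ← hX]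
    exact ⟨fun h => (hmemX _).2 ⟨x.2, h⟩, fun h => ((hmemX _).1 h).2⟩
  have hWsub : W ⊆ wList.toFinset := fun y hy => List.mem_toFinset.2
    (mem_wList_of_fixed ((hWmem y).1 hy).1 fun r hr => hfix r ((himgB r).2 hr) y hy)
  have hWeq : ∀ w ∈ wList, vec C.M w ∈ B := by
    intro w hw
    have h16 : Nat.card X = 16 := by
      rw [hXcard, show C.img B = eSub from SetLike.ext himgB, card_eSub]
    have := Finset.eq_of_subset_of_card_le hWsub (by
      rw [List.toFinset_card_of_nodup wList_ok.2.1, wList_ok.2.2.1]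
      rw [h16] at hbig
      omega)
    exact ((hWmem w).1 (this ▸ List.mem_toFinset.2 hw)).2
  have hgen : ∀ i < 4, ∃ (v : ℕ) (r : ↥Cfsg.M24), code (r : Equiv.Perm GolayPt) = genC i ∧
      r ∈ eSub ∧ vecOK v = true ∧ vec C.M v * C.lift r ∈ B ∧
      (v = 0 ∨ v = liftRep.getD i 0) := by
    intro i hi
    obtain ⟨hrep, r, hr, hrc⟩ := genC_spec hi
    obtain ⟨y, hy, hyB⟩ := C.exists_mem_over ((himgB r).2 hr)
    have hfy : act (genC i) y = y := by
      have h := hsqB _ hyB
      rw [C.mul_rule y hy, (eSub_comm hr hr).2, C.lift_one, mul_one] at h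
      have := vec_eq_one C.M (vec_xor hy (vec_act _ hy)) h
      rw [← hrc]
      exact (Nat.xor_eq_zero_iff.1 this).symm
    obtain ⟨w, hw, hor⟩ := exists_reduced hi hy hfy
    refine ⟨y ^^^ w, r, hrc, hr, vec_xor hy (wList_vec hw), ?_, hor⟩
    rw [Nat.xor_comm, vec_mul, mul_assoc]
    exact mul_mem (hWeq w hw) hyB
  choose v r hrc hrE hv hvB hvor using hgen
  let c := (if v 0 (by norm_num) = 0 then 0 else 1) + (if v 1 (by norm_num) = 0 then 0 else 2) +
    (if v 2 (by norm_num) = 0 then 0 else 4) + (if v 3 (by norm_num) = 0 then 0 else 8)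
  have hc : ∀ i (hi : i < 4), liftVal c i = v i hi := by
    intro i hi
    have h0 := hvor 0 (by norm_num)
    have h1 := hvor 1 (by norm_num)
    have h2 := hvor 2 (by norm_num)
    have h3 := hvor 3 (by norm_num)
    simp only [liftRep, List.getD_cons_zero, List.getD_cons_succ] at h0 h1 h2 h3
    rcases h0 with h0 | h0 <;> rcases h1 with h1 | h1 <;> rcases h2 with h2 | h2 <;>
      rcases h3 with h3 | h3 <;> interval_cases i <;>
      simp [c, h0, h1, h2, h3, liftVal, liftRep, Nat.testBit, Nat.shiftRight_eq_div_pow]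
  have hcond : (List.range 4).all (fun i => (List.range 4).all fun j =>
      liftVal c i ^^^ act (genC i) (liftVal c j) ==
        liftVal c j ^^^ act (genC j) (liftVal c i)) = true := by
    simp only [List.all_eq_true, List.mem_range, beq_iff_eq]
    intro i hi j hj
    have h := hcommB _ (hvB i hi) _ (hvB j hj)
    rw [C.mul_rule _ (hv j hj), C.mul_rule _ (hv i hi)] at h
    have := (C.decomp_inj (vec_xor (hv i hi) (vec_act _ (hv j hj)))
      (vec_xor (hv j hj) (vec_act _ (hv i hi))) h).1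
    rwa [hrc, hrc, ← hc, ← hc] at this
  have hlift := List.all_eq_true.1 lift_ok c (List.mem_range.2 (by dsimp only [c]; split_ifs <;> norm_num))
  rw [Bool.or_eq_true, hcond] at hlift
  simp only [Bool.not_true, Bool.false_eq_true, false_or, List.any_eq_true, Bool.and_eq_true,
    List.all_eq_true, List.mem_range, List.contains_eq_mem, decide_eq_true_eq] at hlift
  obtain ⟨w, -, hw, hwi⟩ := hlift
  refine ⟨vec C.M w * m1, mul_mem (Subgroup.le_normalizer (vec_mem C.M w)) (C.lift_mem s), ?_⟩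
  have hmap : A.map (MulAut.conj (vec C.M w * m1)).toMonoidHom =
      B.map (MulAut.conj (vec C.M w)).toMonoidHom := by
    rw [hBdef, Subgroup.map_map]
    congr 1
    ext x
    simp [mul_assoc]
  rw [hmap]
  symm
  have hinj2 : Function.Injective (MulAut.conj (vec C.M w)).toMonoidHom :=
    (MulAut.conj (vec C.M w)).injective
  refine Subgroup.eq_of_le_of_card_ge ?_ (by
    rw [Subgroup.card_map_of_injective hinj2, hBcard, C.card_A0])
  set H := B.map (MulAut.conj (vec C.M w)).toMonoidHom with hH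
  have hHw : ∀ u ∈ wList, vec C.M u ∈ H := fun u hu =>
    ⟨_, hWeq u hu, C.normalizer_conj_vec (vec_mem C.M w)⟩
  let L : Subgroup ↥Cfsg.M24 :=
    { carrier := {x | C.lift x ∈ H}
      one_mem' := by show C.lift 1 ∈ H; rw [C.lift_one]; exact one_mem _
      mul_mem' := fun {a b} ha hb => by show C.lift (a * b) ∈ H; rw [C.lift_mul]; exact mul_mem ha hb
      inv_mem' := fun {a} ha => by show C.lift a⁻¹ ∈ H; rw [C.lift_inv]; exact inv_mem ha }
  have hL : ∀ i (hi : i < 4), r i hi ∈ L := by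
    intro i hi
    have h1 : vec C.M (w ^^^ act (genC i) w ^^^ v i hi) * C.lift (r i hi) ∈ H := by
      refine ⟨_, hvB i hi, ?_⟩
      show vec C.M w * _ * (vec C.M w)⁻¹ = _
      rw [C.conj_pair (hv i hi) hw, hrc]
      congr 2
      ac_rfl
    have hu : w ^^^ act (genC i) w ^^^ v i hi ∈ wList := by rw [← hc i hi]; exact hwi i hi
    have := mul_mem (inv_mem (hHw _ hu)) h1
    rwa [inv_mul_cancel_left] at this
  rintro _ ⟨y, hy, x, hx, rfl⟩
  refine mul_mem (hHw y hy) ?_
  have hle : grpOf eList.reverse ≤ L.map Cfsg.M24.subtype := by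
    refine (Subgroup.closure_le _).2 fun g hg => ?_
    have hex : ∃ i < 4, genC i = code g := by
      simp only [eList, List.reverse_cons, List.reverse_nil, List.nil_append, List.cons_append,
        List.map_cons, List.map_nil, List.mem_cons, List.not_mem_nil, or_false,
        Set.mem_setOf_eq] at hg
      rcases hg with hg | hg | hg | hg
      exacts [⟨3, by norm_num, hg.symm⟩, ⟨2, by norm_num, hg.symm⟩, ⟨1, by norm_num, hg.symm⟩,
        ⟨0, by norm_num, hg.symm⟩]
    obtain ⟨i, hi, e⟩ := hex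
    exact ⟨r i hi, hL i hi, code_injective ((hrc i hi).trans e)⟩
  obtain ⟨x', hx', e⟩ := hle (Subgroup.mem_subgroupOf.1 hx)
  exact (Subtype.ext e : x' = x) ▸ hx'

end Cfg

end CfsgLib.J4Ten31
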