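import Cfsg.Agent.J4Type13.Model
import Cfsg.Agent.Mathieu.Code
import Cfsg.Agent.Mathieu.OutSmall

/-!
Numerical coordinates on the even cocode: a vector is a twelve-bit syndrome of even weight.
-/

set_option autoImplicit false

open scoped Pointwise symmDiff

namespace CfsgLib.J4Ten31

open Cfsg
open CfsgLib.Mathieu.Code (code cmpC idC code_mul code_one ap_code)

/-- The syndrome of a set of points. -/
def psi (n : ℕ) : ℕ := (n ^^^ Golay.word (n % 4096)) / 4096

/-- The image of a mask under a coded permutation. -/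
def imgC (P m : ℕ) : ℕ :=
  ((List.range 24).filter fun i => m.testBit i).foldr (fun i n => 2 ^ Mathieu.Code.ap P i ||| n) 0

/-- A coded permutation on syndromes. -/
def act (P y : ℕ) : ℕ := psi (imgC P (y * 4096))

/-- The even syndromes. -/
def vecOK (y : ℕ) : Bool := decide (y < 4096) && Golay.pop (y * 4096) % 2 == 0

theorem smul_ofMask (g : Equiv.Perm GolayPt) (m : ℕ) :
    g • Golay.ofMask m = Golay.ofMask (imgC (code g) m) := by
  rw [Mathieu.smul_ofMask_tab]
  congr 1
  unfold Mathieu.maskImage imgC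
  have key : ∀ L : List ℕ, (∀ i ∈ L, i < 24) →
      L.foldr (fun i n => 2 ^ Mathieu.app (Mathieu.toTab g) i ||| n) 0 =
        L.foldr (fun i n => 2 ^ Mathieu.Code.ap (code g) i ||| n) 0 := by
    intro L
    induction L with
    | nil => intro; rfl
    | cons a L ih =>
      intro h
      simp only [List.foldr_cons]
      rw [ih fun i hi => h i (List.mem_cons_of_mem _ hi), ap_code g (h a List.mem_cons_self),
        Mathieu.app_toTab g a (h a List.mem_cons_self)]
  exact key _ fun i hi => List.mem_range.1 (List.mem_of_mem_filter hi)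

theorem imgC_lt (g : Equiv.Perm GolayPt) (m : ℕ) : imgC (code g) m < 2 ^ 24 := by
  unfold imgC
  have : ∀ L : List ℕ, (∀ i ∈ L, i < 24) →
      L.foldr (fun i n => 2 ^ Mathieu.Code.ap (code g) i ||| n) 0 < 2 ^ 24 := by
    intro L
    induction L with
    | nil => intro; norm_num
    | cons a L ih =>
      intro h
      refine Nat.or_lt_two_pow ?_ (ih fun i hi => h i (List.mem_cons_of_mem _ hi))
      rw [ap_code g (h a List.mem_cons_self)]
      exact Nat.pow_lt_pow_right (by norm_num) (Mathieu.p2i_lt _)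
  exact this _ fun i hi => List.mem_range.1 (List.mem_of_mem_filter hi)

theorem even_word (i : ℕ) : Even (Golay.ofMask (Golay.word (i % 4096))).card := by
  have h : Golay.inCode (Golay.word (i % 4096)) = true :=
    Golay.inCode_iff.2 ⟨_, Nat.mod_lt _ (by norm_num), rfl⟩
  have := Golay.of_allSpan (P := fun w => decide (Golay.pop w % 2 = 0)) (by decide +kernel) h
  rw [← Golay.pop_eq_card]
  exact Nat.even_iff.2 (by simpa using this)

theorem word_lt (i : ℕ) : Golay.word (i % 4096) < 2 ^ 24 := by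
  have h : Golay.inCode (Golay.word (i % 4096)) = true :=
    Golay.inCode_iff.2 ⟨_, Nat.mod_lt _ (by norm_num), rfl⟩
  have := Golay.of_allSpan Golay.codeMasks_facts h
  simp only [Bool.and_eq_true, decide_eq_true_eq] at this
  exact this.1

theorem eq_psi {n : ℕ} : n = psi n * 4096 ^^^ Golay.word (n % 4096) := by
  have h0 : (n ^^^ Golay.word (n % 4096)) % 4096 = 0 := by
    rw [show (4096 : ℕ) = 2 ^ 12 from rfl, Nat.xor_mod_two_pow,
      show Golay.word (n % 2 ^ 12) % 2 ^ 12 = n % 2 ^ 12 from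
        Golay.word_mod (Nat.mod_lt _ (by norm_num)), Nat.xor_self]
  rw [psi, Nat.div_mul_cancel (Nat.dvd_of_mod_eq_zero h0), Nat.xor_assoc, Nat.xor_self,
    Nat.xor_zero]

theorem psi_lt {n : ℕ} (h : n < 2 ^ 24) : psi n < 4096 := by
  have := Nat.xor_lt_two_pow h (word_lt n)
  rw [psi, Nat.div_lt_iff_lt_mul (by norm_num)]
  omega

theorem xor_mul_4096 (a b : ℕ) : (a ^^^ b) * 4096 = a * 4096 ^^^ b * 4096 := by
  rw [show (4096 : ℕ) = 2 ^ 12 from rfl, ← Nat.shiftLeft_eq, ← Nat.shiftLeft_eq,
    ← Nat.shiftLeft_eq, Nat.shiftLeft_xor_distrib]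

theorem card_xor (a b : ℕ) : Even (Golay.ofMask (a ^^^ b)).card ↔
    (Even (Golay.ofMask a).card ↔ Even (Golay.ofMask b).card) := by
  rw [Golay.ofMask_xor]
  have := Golay.card_symmDiff_add (Golay.ofMask a) (Golay.ofMask b)
  simp only [Nat.even_iff]
  omega

theorem vecOK_iff {y : ℕ} :
    vecOK y = true ↔ y < 4096 ∧ Even (Golay.ofMask (y * 4096)).card := by
  rw [vecOK, Bool.and_eq_true, decide_eq_true_eq, beq_iff_eq, Golay.pop_eq_card, Nat.even_iff]

theorem vec_xor {a b : ℕ} (ha : vecOK a = true) (hb : vecOK b = true) :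
    vecOK (a ^^^ b) = true := by
  rw [vecOK_iff] at *
  refine ⟨Nat.xor_lt_two_pow (n := 12) ha.1 hb.1, ?_⟩
  rw [xor_mul_4096, card_xor]
  exact iff_of_true ha.2 hb.2

theorem vec_psi {n : ℕ} (h : n < 2 ^ 24) (he : Even (Golay.ofMask n).card) :
    vecOK (psi n) = true := by
  refine vecOK_iff.2 ⟨psi_lt h, ?_⟩
  rw [eq_psi (n := n), card_xor] at he
  exact he.2 (even_word n)

theorem vec_act (g : Equiv.Perm GolayPt) {y : ℕ} (hy : vecOK y = true) :
    vecOK (act (code g) y) = true := by
  refine vec_psi (imgC_lt g _) ?_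
  rw [← smul_ofMask, Finset.card_smul_finset]
  exact (vecOK_iff.1 hy).2

theorem imgC_xor (g : Equiv.Perm GolayPt) (a b : ℕ) :
    imgC (code g) (a ^^^ b) = imgC (code g) a ^^^ imgC (code g) b := by
  rw [← Golay.toMask_ofMask (imgC_lt g (a ^^^ b)), ← smul_ofMask, Golay.ofMask_xor,
    Finset.smul_finset_symmDiff, smul_ofMask, smul_ofMask, ← Golay.ofMask_xor,
    Golay.toMask_ofMask (Nat.xor_lt_two_pow (imgC_lt g a) (imgC_lt g b))]

theorem psi_xor (a b : ℕ) : psi (a ^^^ b) = psi a ^^^ psi b := by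
  have h : (a ^^^ b) % 4096 = a % 4096 ^^^ b % 4096 := Nat.xor_mod_two_pow (n := 12)
  rw [psi, psi, psi, h, show Golay.word (a % 4096 ^^^ b % 4096) =
    Golay.word (a % 4096) ^^^ Golay.word (b % 4096) from Golay.comb_xor _ _ _,
    show (4096 : ℕ) = 2 ^ 12 from rfl, ← Nat.shiftRight_eq_div_pow, ← Nat.shiftRight_eq_div_pow,
    ← Nat.shiftRight_eq_div_pow, ← Nat.shiftRight_xor_distrib]
  congr 1
  ac_rfl

theorem act_xor (g : Equiv.Perm GolayPt) (a b : ℕ) :
    act (code g) (a ^^^ b) = act (code g) a ^^^ act (code g) b := by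
  rw [act, xor_mul_4096, imgC_xor, psi_xor]; rfl

theorem act_zero (g : Equiv.Perm GolayPt) : act (code g) 0 = 0 := by
  have h := act_xor g 0 0
  simpa using h

attribute [local irreducible] imgC psi Mathieu.Code.code

theorem imgC_word {g : Equiv.Perm GolayPt} (hg : g ∈ Cfsg.M24) (i : ℕ) :
    psi (imgC (code g) (Golay.word (i % 4096))) = 0 := by
  have hs : Golay.ofMask (Golay.word (i % 4096)) ∈
      supports (golayCode : Set (GolayPt → ZMod 2)) := by
    rw [Golay.mem_supports_iff, Golay.toMask_ofMask (word_lt i)]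
    exact Golay.inCode_iff.2 ⟨_, Nat.mod_lt _ (by norm_num), rfl⟩
  have h := Golay.mem_supports_iff.1 (Golay.smul_mem_supports hg hs)
  rw [smul_ofMask, Golay.toMask_ofMask (imgC_lt g _)] at h
  obtain ⟨j, hj, e⟩ := Golay.inCode_iff.1 h
  rw [← e]
  unfold psi
  rw [Golay.word_mod hj, Nat.xor_self, Nat.zero_div]

theorem act_psi {g : Equiv.Perm GolayPt} (hg : g ∈ Cfsg.M24) (n : ℕ) :
    act (code g) (psi n) = psi (imgC (code g) n) := by
  conv_rhs => rw [eq_psi (n := n), imgC_xor, psi_xor, imgC_word hg, Nat.xor_zero]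
  rfl

theorem act_act {g : Equiv.Perm GolayPt} (hg : g ∈ Cfsg.M24) (h : Equiv.Perm GolayPt) (y : ℕ) :
    act (code g) (act (code h) y) = act (code (g * h)) y := by
  have e : imgC (code g) (imgC (code h) (y * 4096)) = imgC (code (g * h)) (y * 4096) := by
    have h1 : Golay.ofMask (imgC (code g) (imgC (code h) (y * 4096))) =
        Golay.ofMask (imgC (code (g * h)) (y * 4096)) :=
      ((smul_ofMask g _).symm.trans (congrArg (g • ·) (smul_ofMask h _).symm)).trans
        ((smul_smul g h _).trans (smul_ofMask (g * h) _))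
    have h2 := congrArg Golay.toMask h1
    rwa [Golay.toMask_ofMask (imgC_lt g _), Golay.toMask_ofMask (imgC_lt (g * h) _)] at h2
  show act (code g) (psi (imgC (code h) (y * 4096))) = psi (imgC (code (g * h)) (y * 4096))
  exact (act_psi hg _).trans (congrArg psi e)

theorem act_one {y : ℕ} (hy : vecOK y = true) : act (code 1) y = y := by
  have hlt := (vecOK_iff.1 hy).1
  have h : imgC (code 1) (y * 4096) = y * 4096 := by
    rw [← Golay.toMask_ofMask (imgC_lt 1 _), ← smul_ofMask, one_smul,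
      Golay.toMask_ofMask (by omega)]
  rw [act, h]
  unfold psi
  rw [Nat.mul_mod_left, show Golay.word 0 = 0 by decide +kernel, Nat.xor_zero,
    Nat.mul_div_cancel _ (by norm_num)]

variable {G : Type*} [Group G] {V : Subgroup G} {t : G}

/-- The member of `V` with the given syndrome. -/
def vec (M : J4Type13.Model V t) (y : ℕ) : G := M.F (Golay.ofMask (y * 4096))

variable (M : J4Type13.Model V t)

theorem vec_mem (y : ℕ) : vec M y ∈ V := M.F_mem _

theorem vec_mul (a b : ℕ) : vec M (a ^^^ b) = vec M a * vec M b := by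
  rw [vec, xor_mul_4096, Golay.ofMask_xor, M.F_mul]; rfl

theorem vec_zero : vec M 0 = 1 := by
  have h := vec_mul M 0 0
  rw [Nat.xor_self] at h
  exact mul_eq_left.1 h.symm

theorem vec_eq_one {y : ℕ} (hy : vecOK y = true) (h : vec M y = 1) : y = 0 := by
  obtain ⟨hlt, he⟩ := vecOK_iff.1 hy
  have hc := M.code _ he h
  rw [Golay.mem_golayCode_iff, Golay.support₂_wordOf, Golay.toMask_ofMask (by omega)] at hc
  obtain ⟨i, hi, hiy⟩ := Golay.inCode_iff.1 hc
  have := Golay.word_mod hi
  rw [hiy, Nat.mul_mod_left] at this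
  subst this
  rw [show Golay.word 0 = 0 by decide +kernel] at hiy
  omega

theorem vec_inj {a b : ℕ} (ha : vecOK a = true) (hb : vecOK b = true) (h : vec M a = vec M b) :
    a = b := by
  refine Nat.xor_eq_zero_iff.1 (vec_eq_one M (vec_xor ha hb) ?_)
  rw [vec_mul, h]
  exact M.sq _ (vec_mem M b)

theorem count_vec : ((List.range 4096).filter vecOK).length = 2048 := by decide +kernel

theorem vec_surj [Finite G] {v : G} (hv : v ∈ V) : ∃ y, vecOK y = true ∧ vec M y = v := by
  classical
  let S := ((List.range 4096).filter vecOK).toFinset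
  have hS : ∀ y, y ∈ S → vecOK y = true := fun y hy => by
    simp only [S, List.mem_toFinset, List.mem_filter] at hy; exact hy.2
  let f : {y // y ∈ S} → ↥V := fun y => ⟨vec M y.1, vec_mem M _⟩
  have hf : Function.Injective f := fun a b e =>
    Subtype.ext (vec_inj M (hS _ a.2) (hS _ b.2) (congrArg Subtype.val e))
  have hb := (Nat.bijective_iff_injective_and_card f).2 ⟨hf, by
    rw [M.card, Nat.card_eq_fintype_card, Fintype.card_coe,
      List.toFinset_card_of_nodup (List.nodup_range.filter _), count_vec]; norm_num⟩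
  obtain ⟨y, hy⟩ := hb.surjective ⟨v, hv⟩
  exact ⟨y.1, hS _ y.2, congrArg Subtype.val hy⟩

theorem F_word [Finite G] (i : ℕ) : M.F (Golay.ofMask (Golay.word (i % 4096))) = 1 := by
  set S := Golay.ofMask (Golay.word (i % 4096)) with hS
  obtain ⟨y, hy, he⟩ := vec_surj M (M.F_mem S)
  obtain ⟨hlt, hev⟩ := vecOK_iff.1 hy
  have h1 : M.F (S ∆ Golay.ofMask (y * 4096)) = 1 := by
    rw [M.F_mul, show M.F (Golay.ofMask (y * 4096)) = M.F S from he]
    exact M.sq _ (M.F_mem _)
  have hc := M.code _ (J4Type13.even_symmDiff (even_word i) hev) h1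
  rw [← Golay.ofMask_xor, Golay.mem_golayCode_iff, Golay.support₂_wordOf,
    Golay.toMask_ofMask (Nat.xor_lt_two_pow (word_lt i) (by omega))] at hc
  obtain ⟨j, hj, hjy⟩ := Golay.inCode_iff.1 hc
  have hm := congrArg (· % 2 ^ 12) hjy
  simp only [Nat.xor_mod_two_pow] at hm
  rw [show Golay.word j % 2 ^ 12 = j from Golay.word_mod hj,
    show Golay.word (i % 4096) % 2 ^ 12 = i % 4096 from
      Golay.word_mod (Nat.mod_lt _ (by norm_num)),
    show y * 4096 % 2 ^ 12 = 0 by norm_num, Nat.xor_zero] at hm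
  rw [hm] at hjy
  have h2 := congrArg (Golay.word (i % 4096) ^^^ ·) hjy
  simp only [Nat.xor_self, ← Nat.xor_assoc, Nat.zero_xor] at h2
  have : y = 0 := by omega
  rw [show M.F S = vec M y from he.symm, this, vec_zero]

theorem F_mask [Finite G] (n : ℕ) : M.F (Golay.ofMask n) = vec M (psi n) := by
  conv_lhs => rw [eq_psi (n := n)]
  rw [Golay.ofMask_xor, M.F_mul, F_word, mul_one]; rfl

theorem conj_vec [Finite G] (m : ↥(Subgroup.normalizer (V : Set G))) {y : ℕ}
    (hy : vecOK y = true) :
    (m : G) * vec M y * (m : G)⁻¹ =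
      vec M (act (code (M.Φ m : Equiv.Perm GolayPt)) y) := by
  rw [vec, M.equiv m _ (vecOK_iff.1 hy).2, smul_ofMask, F_mask]; rfl

end CfsgLib.J4Ten31
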