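import Cfsg.Agent.J4Ten31.Defs

/-!
A complement of the standard subgroup of order `2 ^ 10` in a Sylow two-subgroup of its normaliser.
-/

set_option autoImplicit false

namespace CfsgLib.J4Ten31

open Cfsg
open CfsgLib.Mathieu.Code (code cmpC idC spanR)

/-- The product of two coded elements. -/
def mulP (p q : ℕ × ℕ) : ℕ × ℕ := (p.1 ^^^ act p.2 q.1, cmpC p.2 q.2)

/-- The coded element of a series entry. -/
def serElt (σ : ℕ × ℕ × ℕ) : ℕ × ℕ := (σ.1, σ.2.1)

/-- The coded inverse of a series entry. -/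
def serInv (σ : ℕ × ℕ × ℕ) : ℕ × ℕ := (act σ.2.2 σ.1, σ.2.2)

/-- The elements of a series (last element first). -/
def serSpan : List (ℕ × ℕ × ℕ) → List (ℕ × ℕ)
  | [] => [(0, idC)]
  | σ :: r => serSpan r ++ (serSpan r).map fun h => mulP h (serElt σ)

/-- One step of a series. -/
def serStep (L : List (ℕ × ℕ)) (σ : ℕ × ℕ × ℕ) : Bool :=
  vecOK σ.1 && vecOK (serInv σ).1 && mulP (serElt σ) (serInv σ) == (0, idC) &&
    !((L.map Prod.snd).contains σ.2.1) && L.contains (mulP (serElt σ) (serElt σ)) &&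
    (L.all fun h => L.contains (mulP (mulP (serElt σ) h) (serInv σ))) &&
    (wList.all fun w =>
      wList.contains (mulP (mulP (serElt σ) (w, idC)) (serInv σ)).1 &&
        eCodes.contains (mulP (mulP (serElt σ) (w, idC)) (serInv σ)).2) &&
    (eCodes.all fun e =>
      wList.contains (mulP (mulP (serElt σ) (0, e)) (serInv σ)).1 &&
        eCodes.contains (mulP (mulP (serElt σ) (0, e)) (serInv σ)).2)

/-- A valid series. -/
def serOK : List (ℕ × ℕ × ℕ) → Bool
  | [] => true
  | σ :: r => serOK r && serStep (serSpan r) σ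

theorem serOK_vec : ∀ l : List (ℕ × ℕ × ℕ), serOK l = true → ∀ σ ∈ l, vecOK σ.1 = true
  | [], _, σ, hσ => by simp at hσ
  | τ :: r, h, σ, hσ => by
    simp only [serOK, serStep, Bool.and_eq_true] at h
    rcases List.mem_cons.1 hσ with rfl | hσ
    · exact h.2.1.1.1.1.1.1.1
    · exact serOK_vec r h.1 σ hσ

/-- The series of the complement. -/
def complSer : List (ℕ × ℕ × ℕ) :=
  [(0, 312476638585363268545294273444261024, 879369982081038579967955302019839488),
    (0, 921009731639919620592012292560368064, 321217734116417513350620451761828352),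
    (0, 217635740495593158175531982639368224, 217635740495593158175531982639368224),
    (0, 583145386162648613807182226488111808, 583145386162648613807182226488111808),
    (0, 964535666224237909311206888388637344, 964535666224237909311206888388637344),
    (0, 692791675238640024462683487516864736, 692791675238640024462683487516864736),
    (2446, 62526373840948765062989544689865453, 62526373840948765062989544689865453),
    (89, 482912271780140587769291052424476981, 482912271780140587769291052424476981),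
    (1734, 545565902684344034787456025851183105, 545565902684344034787456025851183105),
    (3591, 609690008300528375938862232263306484, 609690008300528375938862232263306484)]

theorem complSer_ok : serOK complSer = true := by decide +kernel

theorem complSer_rep : ∀ p ∈ complSer.map Prod.snd,
    ∃ g ∈ Cfsg.M24, code g = p.1 ∧ code g⁻¹ = p.2 :=
  Mathieu.Code.rep_of_check Mathieu.Code.inM24 (fun _ h => Mathieu.Code.inM24_mem h) _
    (by decide +kernel)

theorem complSer_meet : ((serSpan complSer).all fun p => p == (0, idC) ||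
    !(eCodes.contains p.2) || !(wList.contains p.1)) = true := by decide +kernel

namespace Cfg

variable {G : Type*} [Group G] (C : Cfg G)

/-- `x` has the coordinates `p`. -/
def Rep (p : ℕ × ℕ) (x : G) : Prop :=
  vecOK p.1 = true ∧ ∃ s : ↥Cfsg.M24,
    code (s : Equiv.Perm GolayPt) = p.2 ∧ x = vec C.M p.1 * C.lift s

theorem rep_mul [Finite G] {p q : ℕ × ℕ} {x y : G} (hx : C.Rep p x) (hy : C.Rep q y) :
    C.Rep (mulP p q) (x * y) := by
  obtain ⟨h1, r, hr, rfl⟩ := hx
  obtain ⟨h2, s, hs, rfl⟩ := hy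
  refine ⟨?_, r * s, ?_, ?_⟩
  · show vecOK (p.1 ^^^ act p.2 q.1) = true
    rw [← hr]
    exact vec_xor h1 (vec_act _ h2)
  · show code ((r * s : ↥Cfsg.M24) : Equiv.Perm GolayPt) = cmpC p.2 q.2
    rw [Subgroup.coe_mul, Mathieu.Code.code_mul, hr, hs]
  · rw [C.mul_rule p.1 h2 r s, hr]
    rfl

theorem rep_one : C.Rep (0, idC) 1 :=
  ⟨wList_vec zero_wList, 1, Mathieu.Code.code_one, by rw [vec_zero, C.lift_one, mul_one]⟩

theorem rep_unique {p : ℕ × ℕ} {x y : G} (hx : C.Rep p x) (hy : C.Rep p y) : x = y := by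
  obtain ⟨-, r, hr, rfl⟩ := hx
  obtain ⟨-, s, hs, rfl⟩ := hy
  rw [Subtype.ext (Mathieu.Code.code_injective (hr.trans hs.symm)) (a1 := r)]

theorem rep_mem_normalizer {p : ℕ × ℕ} {x : G} (hx : C.Rep p x) :
    x ∈ Subgroup.normalizer (C.V : Set G) := by
  obtain ⟨-, s, -, rfl⟩ := hx
  exact mul_mem (Subgroup.le_normalizer (vec_mem C.M _)) (C.lift_mem s)

theorem rep_mem_A0 [Finite G] {p : ℕ × ℕ} {x : G} (hx : C.Rep p x) (hw : p.1 ∈ wList)
    (he : p.2 ∈ eCodes) : x ∈ C.A0 := by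
  obtain ⟨-, s, hs, rfl⟩ := hx
  exact ⟨p.1, hw, s, mem_eSub.2 (hs ▸ he), rfl⟩

theorem exists_rep [Finite G] : ∀ l : List (ℕ × ℕ × ℕ),
    (∀ p ∈ l.map Prod.snd, ∃ g ∈ Cfsg.M24, code g = p.1 ∧ code g⁻¹ = p.2) →
    (∀ σ ∈ l, vecOK σ.1 = true) → ∀ p ∈ serSpan l, ∃ x, C.Rep p x
  | [], _, _, p, hp => ⟨1, by
      simp only [serSpan, List.mem_singleton] at hp
      exact hp ▸ C.rep_one⟩
  | (v, a, b) :: r, hrep, hv, p, hp => by
    have ih := exists_rep r (fun p hp => hrep p (List.mem_cons_of_mem _ hp))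
      fun σ hσ => hv σ (List.mem_cons_of_mem _ hσ)
    simp only [serSpan, List.mem_append, List.mem_map] at hp
    rcases hp with hp | ⟨q, hq, rfl⟩
    · exact ih p hp
    · obtain ⟨x, hx⟩ := ih q hq
      obtain ⟨g, hg, hga, -⟩ := hrep (a, b) List.mem_cons_self
      exact ⟨_, C.rep_mul hx (show C.Rep (serElt (v, a, b)) (vec C.M v * C.lift ⟨g, hg⟩) from
        ⟨hv _ List.mem_cons_self, ⟨g, hg⟩, hga, rfl⟩)⟩

theorem exists_span [Finite G] : ∀ l : List (ℕ × ℕ × ℕ), serOK l = true →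
    (∀ p ∈ l.map Prod.snd, ∃ g ∈ Cfsg.M24, code g = p.1 ∧ code g⁻¹ = p.2) →
    ∃ H : Subgroup G, H ≤ Subgroup.normalizer (C.A0 : Set G) ∧
      H ≤ Subgroup.normalizer (C.V : Set G) ∧ Nat.card H = 2 ^ l.length ∧
      ∀ x, x ∈ H ↔ ∃ p ∈ serSpan l, C.Rep p x
  | [], _, _ => by
    refine ⟨⊥, bot_le, bot_le, by simp, fun x => ⟨?_, ?_⟩⟩
    · rintro rfl
      exact ⟨(0, idC), by simp [serSpan], C.rep_one⟩
    · rintro ⟨p, hp, hx⟩
      simp only [serSpan, List.mem_singleton] at hp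
      subst hp
      exact Subgroup.mem_bot.2 (C.rep_unique hx C.rep_one)
  | (v, a, b) :: r, h, hrep => by
    simp only [serOK, Bool.and_eq_true] at h
    obtain ⟨H, hA, hV, hc, hm⟩ := exists_span r h.1
      fun p hp => hrep p (List.mem_cons_of_mem _ hp)
    obtain ⟨g, hg, hga, hgb⟩ := hrep (a, b) List.mem_cons_self
    have hst := h.2
    simp only [serStep, Bool.and_eq_true, List.all_eq_true, List.contains_eq_mem, decide_eq_true_eq,
      beq_iff_eq, Bool.not_eq_true', decide_eq_false_iff_not] at hst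
    obtain ⟨⟨⟨⟨⟨⟨⟨hv, hw⟩, hinv⟩, hnew⟩, hsq⟩, hconj⟩, hwA⟩, heA⟩ := hst
    set σ : G := vec C.M v * C.lift ⟨g, hg⟩ with hσdef
    set τ : G := vec C.M (act b v) * C.lift (⟨g, hg⟩ : ↥Cfsg.M24)⁻¹ with hτdef
    have hσ : C.Rep (serElt (v, a, b)) σ := ⟨hv, ⟨g, hg⟩, hga, rfl⟩
    have hτ : C.Rep (serInv (v, a, b)) τ := ⟨hw, (⟨g, hg⟩ : ↥Cfsg.M24)⁻¹, hgb, rfl⟩
    have hστ : σ * τ = 1 := C.rep_unique (hinv ▸ C.rep_mul hσ hτ) C.rep_one
    have hτ' : τ = σ⁻¹ := (inv_eq_of_mul_eq_one_right hστ).symm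
    have hσσ : σ * σ ∈ H := (hm _).2 ⟨_, hsq, C.rep_mul hσ hσ⟩
    have hcj : ∀ x ∈ H, σ * x * σ⁻¹ ∈ H := by
      intro x hx
      obtain ⟨p, hp, hpx⟩ := (hm x).1 hx
      exact (hm _).2 ⟨_, hconj p hp, hτ' ▸ C.rep_mul (C.rep_mul hσ hpx) hτ⟩
    have hσH : σ ∉ H := by
      intro hx
      obtain ⟨p, hp, hpv, s, hs, he⟩ := (hm σ).1 hx
      obtain ⟨-, h2⟩ := C.decomp_inj hv hpv he
      refine hnew (List.mem_map.2 ⟨p, hp, ?_⟩)
      rw [← hs, ← h2]
      exact hga
    have hσA : σ ∈ Subgroup.normalizer (C.A0 : Set G) := by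
      have hmap : ∀ x ∈ C.A0, σ * x * σ⁻¹ ∈ C.A0 := by
        rintro _ ⟨w, hww, e, he, rfl⟩
        have h1 : C.Rep (w, idC) (vec C.M w) :=
          ⟨wList_vec hww, 1, Mathieu.Code.code_one, by rw [C.lift_one, mul_one]⟩
        have h2 : C.Rep (0, code (e : Equiv.Perm GolayPt)) (C.lift e) :=
          ⟨wList_vec zero_wList, e, rfl, by rw [vec_zero, one_mul]⟩
        have e1 := C.rep_mem_A0 (hτ' ▸ C.rep_mul (C.rep_mul hσ h1) hτ) (hwA w hww).1 (hwA w hww).2
        have e2 := C.rep_mem_A0 (hτ' ▸ C.rep_mul (C.rep_mul hσ h2) hτ)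
          (heA _ (mem_eSub.1 he)).1 (heA _ (mem_eSub.1 he)).2
        rw [show σ * (vec C.M w * C.lift e) * σ⁻¹ =
          σ * vec C.M w * σ⁻¹ * (σ * C.lift e * σ⁻¹) by group]
        exact mul_mem e1 e2
      have hle : C.A0.map (MulAut.conj σ).toMonoidHom = C.A0 := by
        refine Subgroup.eq_of_le_of_card_ge ?_ ?_
        · rintro _ ⟨x, hx, rfl⟩
          exact hmap x hx
        · rw [Subgroup.card_map_of_injective (MulAut.conj σ).injective]
      refine Subgroup.mem_normalizer_iff.2 fun x => ⟨hmap x, fun hx => ?_⟩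
      obtain ⟨y, hy, hyx⟩ := hle.ge hx
      exact (MulAut.conj σ).injective (show MulAut.conj σ y = MulAut.conj σ x from hyx) ▸ hy
    have hinvσ : ∀ x ∈ H, x * σ⁻¹ = x * (σ * σ)⁻¹ * σ := fun x _ => by group
    let K : Subgroup G :=
      { carrier := {x | x ∈ H ∨ x * σ⁻¹ ∈ H}
        one_mem' := Or.inl H.one_mem
        mul_mem' := by
          intro x y hx hy
          rcases hx with hx | hx <;> rcases hy with hy | hy
          · exact Or.inl (H.mul_mem hx hy)
          · exact Or.inr (by rw [mul_assoc]; exact H.mul_mem hx hy)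
          · refine Or.inr ?_
            rw [show x * y * σ⁻¹ = x * σ⁻¹ * (σ * y * σ⁻¹) by group]
            exact H.mul_mem hx (hcj y hy)
          · refine Or.inl ?_
            rw [show x * y = x * σ⁻¹ * (σ * (y * σ⁻¹) * σ⁻¹) * (σ * σ) by group]
            exact H.mul_mem (H.mul_mem hx (hcj _ hy)) hσσ
        inv_mem' := by
          intro x hx
          rcases hx with hx | hx
          · exact Or.inl (H.inv_mem hx)
          · refine Or.inr ?_
            rw [show x⁻¹ * σ⁻¹ = (σ * σ)⁻¹ * (σ * (x * σ⁻¹)⁻¹ * σ⁻¹) by group]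
            exact H.mul_mem (H.inv_mem hσσ) (hcj _ (H.inv_mem hx)) }
    have hK : ∀ x, x ∈ K ↔ x ∈ H ∨ x * σ⁻¹ ∈ H := fun x => Iff.rfl
    refine ⟨K, ?_, ?_, ?_, fun x => ?_⟩
    · intro x hx
      rcases (hK x).1 hx with hx | hx
      · exact hA hx
      · exact (inv_mul_cancel_right x σ) ▸ mul_mem (hA hx) hσA
    · intro x hx
      rcases (hK x).1 hx with hx | hx
      · exact hV hx
      · exact (inv_mul_cancel_right x σ) ▸ mul_mem (hV hx) (C.rep_mem_normalizer hσ)
    · have hset : (K : Set G) = (H : Set G) ∪ (fun x => x * σ) '' (H : Set G) := by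
        ext x
        simp only [SetLike.mem_coe, hK, Set.mem_union, Set.mem_image]
        refine or_congr Iff.rfl ⟨fun h => ⟨_, h, inv_mul_cancel_right x σ⟩, ?_⟩
        rintro ⟨y, hy, rfl⟩
        rwa [mul_inv_cancel_right]
      have hdis : Disjoint (H : Set G) ((fun x => x * σ) '' (H : Set G)) := by
        refine Set.disjoint_left.2 ?_
        rintro x hx ⟨y, hy, rfl⟩
        exact hσH (by simpa using H.mul_mem (H.inv_mem hy) hx)
      rw [← SetLike.coe_sort_coe K, Nat.card_coe_set_eq, hset, Set.ncard_union_eq hdis,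
        Set.ncard_image_of_injective _ (mul_left_injective σ), ← Nat.card_coe_set_eq,
        SetLike.coe_sort_coe, hc, List.length_cons, pow_succ]
      omega
    · simp only [hK, serSpan, List.mem_append, List.mem_map]
      constructor
      · rintro (hx | hx)
        · obtain ⟨p, hp, hpx⟩ := (hm x).1 hx
          exact ⟨p, Or.inl hp, hpx⟩
        · obtain ⟨p, hp, hpx⟩ := (hm _).1 hx
          exact ⟨_, Or.inr ⟨p, hp, rfl⟩, inv_mul_cancel_right x σ ▸ C.rep_mul hpx hσ⟩
      · rintro ⟨_, hp | ⟨p, hp, rfl⟩, hpx⟩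
        · exact Or.inl ((hm x).2 ⟨_, hp, hpx⟩)
        · refine Or.inr ?_
          obtain ⟨hpv, s, hs, he⟩ := hpx
          obtain ⟨y, hy⟩ := C.exists_rep r (fun p hp => hrep p (List.mem_cons_of_mem _ hp))
            (serOK_vec r h.1) p hp
          rw [C.rep_unique ⟨hpv, s, hs, he⟩ (C.rep_mul hy hσ), mul_inv_cancel_right]
          exact (hm _).2 ⟨p, hp, hy⟩

/-- A complement of the standard subgroup in a Sylow two-subgroup of its normaliser. -/
theorem exists_sylow_complement [Finite G] (C : Cfg G) :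
    ∃ B : Subgroup G, B ≤ Subgroup.normalizer (C.A0 : Set G) ∧
      B ≤ Subgroup.normalizer (C.V : Set G) ∧ Nat.card B = 1024 ∧ B ⊓ C.A0 = ⊥ := by
  obtain ⟨B, hA, hV, hc, hm⟩ := C.exists_span complSer complSer_ok complSer_rep
  refine ⟨B, hA, hV, by rw [hc]; rfl, ?_⟩
  refine (Subgroup.eq_bot_iff_forall _).2 fun x hx => ?_
  obtain ⟨p, hp, hpx⟩ := (hm x).1 hx.1
  obtain ⟨y, hy, s, hs, hxe⟩ := C.mem_A0.1 hx.2
  obtain ⟨hpv, r, hr, hxe'⟩ := hpx
  obtain ⟨h1, h2⟩ := C.decomp_inj hpv (wList_vec hy) (hxe'.symm.trans hxe)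
  have := List.all_eq_true.1 complSer_meet p hp
  simp only [Bool.or_eq_true, beq_iff_eq, Bool.not_eq_true', List.contains_eq_mem,
    decide_eq_false_iff_not] at this
  rcases this with (h0 | he) | hw
  · exact C.rep_unique (h0 ▸ (⟨hpv, r, hr, hxe'⟩ : C.Rep p x)) C.rep_one
  · exact absurd (by rw [← hr, h2]; exact mem_eSub.1 hs) he
  · exact absurd (h1 ▸ hy) hw

end Cfg

end CfsgLib.J4Ten31
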