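import Cfsg.Agent.J4Ten31.Search

/-!
The standard elementary abelian subgroup of order `2 ^ 10` in a split extension `2 ^ 11 : M24`.
-/

set_option autoImplicit false

namespace CfsgLib.J4Ten31

open Cfsg
open CfsgLib.Mathieu.Code (code cmpC idC grpOf spanR)

/-- A split normaliser of an elementary abelian subgroup of order `2 ^ 11` with cocode coordinates. -/
structure Cfg (G : Type*) [Group G] where
  V : Subgroup G
  t : G
  M : J4Type13.Model V t
  κ : ↥Cfsg.M24 →* ↥(Subgroup.normalizer (V : Set G))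
  sec : ∀ s, M.Φ (κ s) = s

namespace Cfg

variable {G : Type*} [Group G] (C : Cfg G)

/-- The member of the complement over a permutation. -/
def lift (s : ↥Cfsg.M24) : G := (C.κ s : G)

theorem lift_mul (a b : ↥Cfsg.M24) : C.lift (a * b) = C.lift a * C.lift b := by simp [lift]

theorem lift_one : C.lift 1 = 1 := by simp [lift]

theorem lift_inv (a : ↥Cfsg.M24) : C.lift a⁻¹ = (C.lift a)⁻¹ := by simp [lift]

theorem lift_mem (s : ↥Cfsg.M24) : C.lift s ∈ Subgroup.normalizer (C.V : Set G) := (C.κ s).2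

theorem conj_lift [Finite G] (s : ↥Cfsg.M24) {y : ℕ} (hy : vecOK y = true) :
    C.lift s * vec C.M y * (C.lift s)⁻¹ =
      vec C.M (act (code (s : Equiv.Perm GolayPt)) y) := by
  have h := conj_vec C.M (C.κ s) hy
  rwa [C.sec] at h

theorem lift_notMem {s : ↥Cfsg.M24} (h : C.lift s ∈ C.V) : s = 1 := by
  rw [← C.sec s]
  exact (C.M.mem_ker _).2 h

theorem exists_decomp [Finite G] {m : G} (hm : m ∈ Subgroup.normalizer (C.V : Set G)) :
    ∃ (y : ℕ) (s : ↥Cfsg.M24), vecOK y = true ∧ m = vec C.M y * C.lift s ∧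
      s = C.M.Φ ⟨m, hm⟩ := by
  set s := C.M.Φ ⟨m, hm⟩ with hs
  have h : m * (C.lift s)⁻¹ ∈ C.V := by
    have := (C.M.mem_ker (⟨m, hm⟩ * (C.κ s)⁻¹)).1 (by rw [map_mul, map_inv, C.sec, hs, mul_inv_cancel])
    simpa [lift] using this
  obtain ⟨y, hy, he⟩ := vec_surj C.M h
  exact ⟨y, s, hy, by rw [he, inv_mul_cancel_right], rfl⟩

theorem decomp_inj [Finite G] {a b : ℕ} {r s : ↥Cfsg.M24} (ha : vecOK a = true)
    (hb : vecOK b = true) (h : vec C.M a * C.lift r = vec C.M b * C.lift s) : a = b ∧ r = s := by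
  have h1 : C.lift (r * s⁻¹) = (vec C.M a)⁻¹ * vec C.M b := by
    rw [lift_mul, lift_inv, eq_inv_mul_iff_mul_eq, ← mul_assoc, h, mul_inv_cancel_right]
  have h2 : r = s := mul_inv_eq_one.1
    (C.lift_notMem (h1 ▸ mul_mem (inv_mem (vec_mem C.M a)) (vec_mem C.M b)))
  subst h2
  exact ⟨vec_inj C.M ha hb (mul_right_cancel h), rfl⟩

/-- The multiplication rule. -/
theorem mul_rule [Finite G] {b : ℕ} (a : ℕ) (hb : vecOK b = true) (r s : ↥Cfsg.M24) :
    vec C.M a * C.lift r * (vec C.M b * C.lift s) =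
      vec C.M (a ^^^ act (code (r : Equiv.Perm GolayPt)) b) * C.lift (r * s) := by
  rw [vec_mul, ← C.conj_lift r hb, lift_mul]
  group

end Cfg

/-- A basis of the fixed syndromes of the exceptional subgroup. -/
def wBasis : List ℕ := [40, 72, 136, 786, 1297, 2055]

/-- The fixed syndromes of the exceptional subgroup. -/
def wList : List ℕ := Golay.spanList wBasis

/-- The exceptional subgroup of `M24`. -/
def eSub : Subgroup ↥Cfsg.M24 := (grpOf eList.reverse).subgroupOf Cfsg.M24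

/-- The mask of the octad fixed by the exceptional subgroup. -/
def octMask : ℕ := 951624

theorem eList_ok : Mathieu.Code.pcOK eList.reverse = true := by decide +kernel

theorem eList_rep : ∀ p ∈ eList.reverse, ∃ g ∈ Cfsg.M24, code g = p.1 ∧ code g⁻¹ = p.2 :=
  Mathieu.Code.rep_of_check Mathieu.Code.inM24 (fun _ h => Mathieu.Code.inM24_mem h) _
    (by decide +kernel)

theorem grpOf_eList_le : grpOf eList.reverse ≤ Cfsg.M24 := by
  refine (Subgroup.closure_le _).2 fun g hg => ?_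
  obtain ⟨p, hp, he⟩ := List.mem_map.1 hg
  obtain ⟨x, hx, hc, -⟩ := eList_rep p hp
  exact Mathieu.Code.code_injective (he.symm.trans hc.symm) ▸ hx

theorem mem_eSub {s : ↥Cfsg.M24} :
    s ∈ eSub ↔ code (s : Equiv.Perm GolayPt) ∈ eCodes :=
  Subgroup.mem_subgroupOf.trans ((Mathieu.Code.spanSpec _ eList_ok).mem_iff _)

theorem card_eSub : Nat.card eSub = 16 := by
  rw [eSub, Nat.card_congr (Subgroup.subgroupOfEquivOfLe grpOf_eList_le).toEquiv,
    (Mathieu.Code.spanSpec _ eList_ok).card]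
  rfl

theorem wList_ok : (wList.all fun w => vecOK w &&
    (wList.all fun w' => wList.contains (w ^^^ w')) &&
    eCodes.all fun c => act c w == w) = true ∧ wList.Nodup ∧ wList.length = 64 ∧
    wList.contains 0 = true := by
  decide +kernel

theorem eCodes_comm : (eCodes.all fun a => cmpC a a == idC && eCodes.all fun b =>
    cmpC a b == cmpC b a) = true := by decide +kernel

/-- Membership in the standard subgroup. -/
def Cfg.InA {G : Type*} [Group G] (C : Cfg G) (x : G) : Prop :=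
  ∃ y ∈ wList, ∃ s ∈ eSub, x = vec C.M y * C.lift s

theorem wList_vec {w : ℕ} (h : w ∈ wList) : vecOK w = true := by
  have := List.all_eq_true.1 wList_ok.1 w h
  simp only [Bool.and_eq_true] at this
  exact this.1.1

theorem wList_xor {w w' : ℕ} (h : w ∈ wList) (h' : w' ∈ wList) : w ^^^ w' ∈ wList := by
  have := List.all_eq_true.1 wList_ok.1 w h
  simp only [Bool.and_eq_true, List.all_eq_true, List.contains_eq_mem, decide_eq_true_eq] at this
  exact this.1.2 _ h'

theorem wList_fix {w : ℕ} (h : w ∈ wList) {s : ↥Cfsg.M24} (hs : s ∈ eSub) :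
    act (code (s : Equiv.Perm GolayPt)) w = w := by
  have := List.all_eq_true.1 wList_ok.1 w h
  simp only [Bool.and_eq_true, List.all_eq_true, beq_iff_eq] at this
  exact this.2 _ (mem_eSub.1 hs)

theorem zero_wList : 0 ∈ wList := by
  simpa using wList_ok.2.2.2

theorem eSub_comm {r s : ↥Cfsg.M24} (hr : r ∈ eSub) (hs : s ∈ eSub) :
    r * s = s * r ∧ r * r = 1 := by
  have h := List.all_eq_true.1 eCodes_comm _ (mem_eSub.1 hr)
  simp only [Bool.and_eq_true, List.all_eq_true, beq_iff_eq] at h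
  constructor <;> apply Subtype.ext <;> apply Mathieu.Code.code_injective <;>
    simp only [Subgroup.coe_mul, Subgroup.coe_one, Mathieu.Code.code_mul, Mathieu.Code.code_one]
  · exact h.2 _ (mem_eSub.1 hs)
  · exact h.1

/-- The standard elementary abelian subgroup of order `2 ^ 10`. -/
def Cfg.A0 {G : Type*} [Group G] [Finite G] (C : Cfg G) : Subgroup G where
  carrier := {x | C.InA x}
  one_mem' := ⟨0, zero_wList, 1, one_mem _, by rw [vec_zero, C.lift_one, mul_one]⟩
  mul_mem' := by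
    rintro _ _ ⟨a, ha, r, hr, rfl⟩ ⟨b, hb, s, hs, rfl⟩
    exact ⟨_, wList_xor ha (by rwa [wList_fix hb hr]), r * s, mul_mem hr hs,
      C.mul_rule a (wList_vec hb) r s⟩
  inv_mem' := by
    rintro _ ⟨a, ha, r, hr, rfl⟩
    refine ⟨a, ha, r, hr, inv_eq_of_mul_eq_one_right ?_⟩
    rw [C.mul_rule a (wList_vec ha), wList_fix ha hr, Nat.xor_self, (eSub_comm hr hr).2, vec_zero,
      C.lift_one, mul_one]

theorem Cfg.mem_A0 {G : Type*} [Group G] [Finite G] (C : Cfg G) {x : G} :
    x ∈ C.A0 ↔ ∃ y ∈ wList, ∃ s ∈ eSub, x = vec C.M y * C.lift s := Iff.rfl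

theorem Cfg.A0_le {G : Type*} [Group G] [Finite G] (C : Cfg G) :
    C.A0 ≤ Subgroup.normalizer (C.V : Set G) := by
  rintro _ ⟨a, -, r, -, rfl⟩
  exact mul_mem (Subgroup.le_normalizer (vec_mem C.M a)) (C.lift_mem r)

theorem Cfg.A0_elementary {G : Type*} [Group G] [Finite G] (C : Cfg G) :
    Cfsg.IsElementaryAbelian 2 C.A0 := by
  refine ⟨⟨⟨?_⟩⟩, ?_⟩
  · rintro ⟨_, a, ha, r, hr, rfl⟩ ⟨_, b, hb, s, hs, rfl⟩
    apply Subtype.ext
    show vec C.M a * C.lift r * (vec C.M b * C.lift s) = vec C.M b * C.lift s * (vec C.M a * C.lift r)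
    rw [C.mul_rule a (wList_vec hb), C.mul_rule b (wList_vec ha), wList_fix hb hr, wList_fix ha hs,
      (eSub_comm hr hs).1, Nat.xor_comm]
  · rintro _ ⟨a, ha, r, hr, rfl⟩
    rw [pow_two, C.mul_rule a (wList_vec ha), wList_fix ha hr, Nat.xor_self, (eSub_comm hr hr).2,
      vec_zero, C.lift_one, mul_one]

theorem Cfg.card_A0 {G : Type*} [Group G] [Finite G] (C : Cfg G) : Nat.card C.A0 = 2 ^ 10 := by
  classical
  let f : {y // y ∈ wList.toFinset} × ↥eSub → C.A0 := fun p =>
    ⟨vec C.M p.1.1 * C.lift p.2, p.1.1, List.mem_toFinset.1 p.1.2, p.2, p.2.2, rfl⟩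
  have hf : Function.Bijective f := by
    constructor
    · rintro ⟨⟨a, ha⟩, r⟩ ⟨⟨b, hb⟩, s⟩ h
      obtain ⟨h1, h2⟩ := C.decomp_inj (wList_vec (List.mem_toFinset.1 ha))
        (wList_vec (List.mem_toFinset.1 hb)) (congrArg Subtype.val h)
      exact Prod.ext (Subtype.ext h1) (Subtype.ext h2)
    · rintro ⟨_, a, ha, r, hr, rfl⟩
      exact ⟨(⟨a, List.mem_toFinset.2 ha⟩, ⟨r, hr⟩), rfl⟩
  rw [← Nat.card_eq_of_bijective f hf, Nat.card_prod, card_eSub, Nat.card_eq_fintype_card,
    Fintype.card_coe, List.toFinset_card_of_nodup wList_ok.2.1, wList_ok.2.2.1]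
  norm_num

end CfsgLib.J4Ten31
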