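import Cfsg.Agent.J4Ten31.Orbits
import Cfsg.Agent.J4Ten31.Compl
import Cfsg.Agent.Solvable.Gaschuetz

/-!
The normaliser of the standard subgroup of order `2 ^ 10` is a split extension by `SL(5,2)`, given
its order, the self-centralising property and the invariance of the cone.
-/

set_option autoImplicit false

namespace CfsgLib.J4Ten31

open Cfsg

theorem card_sup_normal {G : Type*} [Group G] [Finite G] (K A : Subgroup G) [K.Normal]
    (h : Disjoint K A) : Nat.card ↥(K ⊔ A) = Nat.card K * Nat.card A := by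
  let f : ↥K × ↥A → ↥(K ⊔ A) := fun p =>
    ⟨p.1.1 * p.2.1, Subgroup.mul_mem_sup p.1.2 p.2.2⟩
  have hf : Function.Bijective f := by
    refine ⟨fun p q e => Subgroup.mul_injective_of_disjoint h (congrArg Subtype.val e), ?_⟩
    rintro ⟨x, hx⟩
    obtain ⟨k, hk, a, ha, rfl⟩ := Subgroup.mem_sup_of_normal_left.1 hx
    exact ⟨(⟨k, hk⟩, ⟨a, ha⟩), rfl⟩
  rw [← Nat.card_eq_of_bijective f hf, Nat.card_prod]

theorem Cfg.exists_complement_SL {G : Type*} [Group G] [Finite G] (C : Cfg G) (o : C.Orbits)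
    (hC : Subgroup.centralizer (C.A0 : Set G) ≤ C.A0)
    (hN : Nat.card (Subgroup.normalizer (C.A0 : Set G)) = 2 ^ 10 * 9999360)
    (hcone : ∀ g ∈ Subgroup.normalizer (C.A0 : Set G), ∀ x, (x ∈ o.sext ∨ x ∈ o.low) →
      (g * x * g⁻¹ ∈ o.sext ∨ g * x * g⁻¹ ∈ o.low)) :
    ∃ B : Subgroup G, B ≤ Subgroup.normalizer (C.A0 : Set G) ∧ B ⊓ C.A0 = ⊥ ∧
      B ⊔ C.A0 = Subgroup.normalizer (C.A0 : Set G) ∧
      Nonempty (B ≃* Matrix.SpecialLinearGroup (Fin 5) (ZMod 2)) := by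
  classical
  obtain ⟨B₁, hB₁, -, hB₁c, hB₁i⟩ := C.exists_sylow_complement
  set N : Subgroup G := Subgroup.normalizer (C.A0 : Set G) with hNdef
  have hAN : C.A0 ≤ N := Subgroup.le_normalizer
  set K : Subgroup ↥N := C.A0.subgroupOf N with hK
  have hKn : K.Normal := hK ▸ Subgroup.normal_in_normalizer
  have hKc : IsMulCommutative K := ⟨⟨fun a b => by
    apply Subtype.ext; apply Subtype.ext
    obtain ⟨x, hx, r, hr, e1⟩ := C.mem_A0.1 a.2
    obtain ⟨y, hy, s, hs, e2⟩ := C.mem_A0.1 b.2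
    show (((a : ↥N) : G)) * ((b : ↥N) : G) = ((b : ↥N) : G) * ((a : ↥N) : G)
    have e1' : ((a : ↥N) : G) = vec C.M x * C.lift r := e1
    have e2' : ((b : ↥N) : G) = vec C.M y * C.lift s := e2
    rw [e1', e2', C.mul_rule x (wList_vec hy), C.mul_rule y (wList_vec hx), wList_fix hy hr,
      wList_fix hx hs, (eSub_comm hr hs).1, Nat.xor_comm]⟩⟩
  set A : Subgroup ↥N := B₁.subgroupOf N with hA
  have hAK : A ⊓ K = ⊥ := by
    refine (Subgroup.eq_bot_iff_forall _).2 fun x hx => Subtype.ext ?_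
    exact Subgroup.mem_bot.1 (hB₁i ▸ (⟨hx.1, hx.2⟩ : (x : G) ∈ B₁ ⊓ C.A0))
  have hKcard : Nat.card K = 2 ^ 10 := by
    rw [hK, Nat.card_congr (Subgroup.subgroupOfEquivOfLe hAN).toEquiv, C.card_A0]
  have hAcard : Nat.card A = 1024 := by
    rw [hA, Nat.card_congr (Subgroup.subgroupOfEquivOfLe hB₁).toEquiv, hB₁c]
  have hdis : Disjoint K A := disjoint_iff.2 (inf_comm K A ▸ hAK)
  have hindex : (K ⊔ A).index = 9765 := by
    have h := Subgroup.card_mul_index (K ⊔ A)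
    rw [card_sup_normal K A hdis, hKcard, hAcard, hN] at h
    norm_num at h ⊢
    omega
  obtain ⟨H, hH⟩ := Solvable.Gaschuetz.exists_complement (K ⊔ A) A le_sup_left
    (by rw [hindex, hKcard]; norm_num) hAK rfl
  have hHcard : Nat.card H = 9999360 := by
    have h := hH.card_mul
    rw [hKcard, hN] at h
    norm_num at h ⊢
    omega
  -- the action on the subgroup
  let ρ : ↥H →* MulAut ↥K := MulAut.conjNormal.comp H.subtype
  have hρ : Function.Injective ρ := by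
    refine (injective_iff_map_eq_one ρ).2 fun h hh => ?_
    have hc : ((h : ↥N) : G) ∈ Subgroup.centralizer (C.A0 : Set G) := by
      refine Subgroup.mem_centralizer_iff.2 fun x hx => ?_
      have e : ρ h ⟨⟨x, hAN hx⟩, hx⟩ = ⟨⟨x, hAN hx⟩, hx⟩ := by rw [hh]; rfl
      have e' : ((h : ↥N) : G) * x * ((h : ↥N) : G)⁻¹ = x := by
        have := congrArg (fun k : ↥K => ((k : ↥N) : G)) e
        simpa [ρ, MulAut.conjNormal_apply] using this
      exact (mul_inv_eq_iff_eq_mul.1 e').symm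
    have hmem : (h : ↥N) ∈ K ⊓ H := ⟨hC hc, h.2⟩
    rw [hH.disjoint.eq_bot] at hmem
    exact Subtype.ext (Subgroup.mem_bot.1 hmem)
  -- coordinates
  let ι : ℕ → ↥K := fun u =>
    if h : u < 1024 then ⟨⟨o.ι u, hAN (o.ι_mem u h)⟩, o.ι_mem u h⟩ else 1
  have ι_val : ∀ u < 1024, ((ι u : ↥N) : G) = o.ι u := fun u hu => by simp [ι, hu]
  have hbij : ∀ m : ↥K, ∃! u, u < 1024 ∧ ι u = m := by
    intro m
    obtain ⟨u, hu, he⟩ := o.ι_surj ((m : ↥N) : G) m.2
    refine ⟨u, ⟨hu, Subtype.ext (Subtype.ext ((ι_val u hu).trans he))⟩, ?_⟩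
    rintro v ⟨hv, rfl⟩
    exact o.ι_inj v hv u hu ((ι_val v hv).symm.trans he.symm)
  have hmul : ∀ a < 1024, ∀ b < 1024, ι (a ^^^ b) = ι a * ι b := by
    intro a ha b hb
    refine Subtype.ext (Subtype.ext ?_)
    simp only [Subgroup.coe_mul, ι_val a ha, ι_val b hb, ι_val _ (xor_lt_1024 ha hb), o.ι_xor]
  have hcone' : ∀ x : ↥H, ∀ u < 1024, IsWedge u →
      ∃ u' < 1024, IsWedge u' ∧ ρ x (ι u) = ι u' := by
    intro x u hu hw
    have hg := hcone ((x : ↥N) : G) (x : ↥N).2 (o.ι u) ((o.cone u hu).1 hw)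
    obtain ⟨u', hu', he⟩ := o.ι_surj (((x : ↥N) : G) * o.ι u * ((x : ↥N) : G)⁻¹)
      ((Subgroup.mem_normalizer_iff.1 (x : ↥N).2 _).1 (o.ι_mem u hu))
    refine ⟨u', hu', (o.cone u' hu').2 (he ▸ hg), Subtype.ext (Subtype.ext ?_)⟩
    simp [ρ, MulAut.conjNormal_apply, ι_val u hu, ι_val u' hu', he]
  obtain ⟨e⟩ := exists_equiv_SL ρ hρ ι hbij hmul hcone' hHcard
  refine ⟨H.map N.subtype, Subgroup.map_subtype_le H, ?_, ?_,
    ⟨(H.equivMapOfInjective N.subtype N.subtype_injective).symm.trans e⟩⟩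
  · refine (Subgroup.eq_bot_iff_forall _).2 fun x hx => ?_
    obtain ⟨⟨y, hy, rfl⟩, hxA⟩ := hx
    have hmem : y ∈ K ⊓ H := ⟨hxA, hy⟩
    rw [hH.disjoint.eq_bot] at hmem
    rw [Subgroup.mem_bot.1 hmem]
    rfl
  · have h := congrArg (Subgroup.map N.subtype) hH.sup_eq_top
    rw [Subgroup.map_sup, hK, Subgroup.map_subgroupOf_eq_of_le hAN, ← MonoidHom.range_eq_map,
      Subgroup.range_subtype] at h
    rw [sup_comm, h]

end CfsgLib.J4Ten31
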