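import Cfsg.Agent.J4Ten31.Normalizer
import Cfsg.Agent.J4Ten31.Quot

/-!
Transport of the structure of the standard subgroup of order `2 ^ 10` to all self-centralising ones.
-/

set_option autoImplicit false

namespace CfsgLib.J4Ten31

open Cfsg

variable {G : Type*} [Group G] [Finite G] {z : G} {C : Cfg G}

omit [Finite G] in
theorem normalizer_map_conj (A : Subgroup G) (g : G) :
    Subgroup.normalizer ((A.map (MulAut.conj g).toMonoidHom : Subgroup G) : Set G) =
      (Subgroup.normalizer (A : Set G)).map (MulAut.conj g).toMonoidHom :=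
  (Subgroup.map_normalizer_eq_of_bijective A (MulAut.conj g).bijective).symm

namespace Hyp

/-- Every self-centralising one is an image of the standard one. -/
theorem exists_map_A0 (h : Hyp z C) {A : Subgroup G} (hel : Cfsg.IsElementaryAbelian 2 A)
    (hcard : Nat.card A = 2 ^ 10) (hself : Subgroup.centralizer (A : Set G) = A) :
    ∃ k : G, A = C.A0.map (MulAut.conj k).toMonoidHom := by
  obtain ⟨g, hg⟩ := h.exists_conj hel hcard hself
  refine ⟨g⁻¹, ?_⟩
  rw [← hg, Subgroup.map_map]
  convert (Subgroup.map_id A).symm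
  ext x
  simp [mul_assoc]

/-- The two orbits, for any self-centralising subgroup. -/
theorem orbits_of (h : Hyp z C) {A : Subgroup G} (hel : Cfsg.IsElementaryAbelian 2 A)
    (hcard : Nat.card A = 2 ^ 10) (hself : Subgroup.centralizer (A : Set G) = A) :
    ∃ a b : G, a ∈ A ∧ b ∈ A ∧
      Set.ncard {v : G | ∃ n ∈ Subgroup.normalizer (A : Set G), n * a * n⁻¹ = v} = 155 ∧
      Set.ncard {v : G | ∃ n ∈ Subgroup.normalizer (A : Set G), n * b * n⁻¹ = v} = 868 := by
  obtain ⟨o⟩ := C.nonempty_orbits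
  obtain ⟨k, rfl⟩ := h.exists_map_A0 hel hcard hself
  obtain ⟨a, b, ha, hb, -, hca, hcb⟩ := h.exists_orbits o
  have key : ∀ c : G, {v : G | ∃ n ∈ Subgroup.normalizer
      ((C.A0.map (MulAut.conj k).toMonoidHom : Subgroup G) : Set G), n * (k * c * k⁻¹) * n⁻¹ = v} =
      (fun x => k * x * k⁻¹) '' conjOrbit (Subgroup.normalizer (C.A0 : Set G)) c := by
    intro c
    ext v
    rw [normalizer_map_conj]
    constructor
    · rintro ⟨_, ⟨n, hn, rfl⟩, rfl⟩
      refine ⟨n * c * n⁻¹, ⟨n, hn, rfl⟩, ?_⟩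
      show k * (n * c * n⁻¹) * k⁻¹ = k * n * k⁻¹ * (k * c * k⁻¹) * (k * n * k⁻¹)⁻¹
      group
    · rintro ⟨_, ⟨n, hn, rfl⟩, rfl⟩
      refine ⟨k * n * k⁻¹, ⟨n, hn, rfl⟩, ?_⟩
      group
  have hinj : Function.Injective fun x : G => k * x * k⁻¹ := (MulAut.conj k).injective
  refine ⟨k * a * k⁻¹, k * b * k⁻¹, conj_mem_map k ha, conj_mem_map k hb, ?_, ?_⟩
  · rw [key, Set.ncard_image_of_injective _ hinj, hca]
  · rw [key, Set.ncard_image_of_injective _ hinj, hcb]

/-- The normaliser of any self-centralising one. -/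
theorem structure_of (h : Hyp z C) {A : Subgroup G} (hel : Cfsg.IsElementaryAbelian 2 A)
    (hcard : Nat.card A = 2 ^ 10) (hself : Subgroup.centralizer (A : Set G) = A) :
    (∃ B : Subgroup G, B ≤ Subgroup.normalizer (A : Set G) ∧ B ⊓ A = ⊥ ∧
      B ⊔ A = Subgroup.normalizer (A : Set G) ∧
      Nonempty (↥B ≃* Matrix.SpecialLinearGroup (Fin 5) (ZMod 2))) ∧
    ∀ W : Subgroup G, W ≤ A → Subgroup.normalizer (A : Set G) ≤ Subgroup.normalizer (W : Set G) →
      W = ⊥ ∨ W = A := by
  obtain ⟨o⟩ := C.nonempty_orbits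
  obtain ⟨k, rfl⟩ := h.exists_map_A0 hel hcard hself
  set f : G →* G := (MulAut.conj k).toMonoidHom with hf
  have hfi : Function.Injective f := (MulAut.conj k).injective
  have hfs : Function.Surjective f := (MulAut.conj k).surjective
  constructor
  · obtain ⟨B, hBN, hBA, hBsup, ⟨e⟩⟩ := C.exists_complement_SL o (h.centralizer_le o)
      (h.ncard_class o).2.1 (fun g hg x hx => h.cone_invariant o hg hx)
    refine ⟨B.map f, ?_, ?_, ?_, ⟨(Subgroup.equivMapOfInjective B f hfi).symm.trans e⟩⟩
    · rw [normalizer_map_conj]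
      exact Subgroup.map_mono hBN
    · rw [← Subgroup.map_inf _ _ f hfi, hBA, Subgroup.map_bot]
    · rw [normalizer_map_conj, ← Subgroup.map_sup, hBsup]
  · intro W hW hN
    have hWe : W = (W.comap f).map f := (Subgroup.map_comap_eq_self_of_surjective hfs W).symm
    have hN' : Subgroup.normalizer (C.A0 : Set G) ≤
        Subgroup.normalizer ((W.comap f : Subgroup G) : Set G) := by
      intro n hn
      refine mem_normalizer_of_le fun x hx => ?_
      rw [Subgroup.mem_comap, map_mul, map_mul, map_inv]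
      refine (Subgroup.mem_normalizer_iff.1 (hN ?_) _).1 hx
      rw [normalizer_map_conj]
      exact ⟨n, hn, rfl⟩
    rcases h.irreducible o (W := W.comap f)
      (fun x hx => (Subgroup.mem_map_iff_mem hfi).1 (hW hx)) hN' with e | e
    · left
      rw [hWe, e, Subgroup.map_bot]
    · right
      rw [hWe, e]

end Hyp

end CfsgLib.J4Ten31
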