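import Cfsg.Agent.J4Ten31.Hyp
import Cfsg.Agent.S5563
import Cfsg.Agent.S5564
import Cfsg.Agent.S5567
import Cfsg.Agent.S5568
import Cfsg.Agent.J4Type13.Main
import Cfsg.Agent.J4Type5.Loc

/-!
A group of Janko-four type has a split normaliser `2 ^ 11 : M24` with all the facts that are used
for the elementary abelian subgroups of order `2 ^ 10`.
-/

set_option autoImplicit false

namespace CfsgLib.J4Ten31

open Cfsg
open scoped Pointwise

section Glue

variable {G : Type*} [Group G] [Finite G]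

/-- The facts about the subgroups of order `2 ^ 11` in a group of Janko-four type. -/
theorem facts_of_type [IsSimpleGroup G] (hG : ¬ IsMulCommutative G) {z : G} {P : Subgroup G}
    (hP : Cfsg.IsOfJankoFourTypeWith z P) : J4Type13.Facts z P := by
  have hJ : Cfsg.IsOfJankoFourType G := ⟨z, P, hP⟩
  obtain ⟨c, hcz, -⟩ := CfsgLib.Jf18.exists_ctx hP
  exact {
    hJ := hP
    normP := (Cfsg.Agent.S5563.result hG z P hP).2.2.2.2
    oneClass := Cfsg.Agent.S5564.result hG hJ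
    normV := fun V hV hc => Cfsg.Agent.S5567.result hG hJ V hV hc
    orbits := fun V hV hc => Cfsg.Agent.S5568.result hG z ⟨P, hP⟩ V hV hc
    loc := fun V hV hc v hv hzv =>
      c.exists_local (CfsgLib.Jf18.Ctx.sq_of_elementary_amb hV) hc hv (hcz ▸ hzv) }

/-- The members outside the class of `z` are exactly the images of the pairs of points. -/
theorem class_pairs {z : G} {V : Subgroup G} (hz : orderOf z = 2)
    (hc : Nat.card ↥V = 2 ^ 11)
    (horb : ∃ z' t' : G, z' ∈ V ∧ t' ∈ V ∧ t' ≠ 1 ∧ IsConj z z' ∧ ¬ IsConj z t' ∧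
      Set.ncard {v : G | ∃ n ∈ Subgroup.normalizer (V : Set G), n * z' * n⁻¹ = v} = 1771 ∧
      Set.ncard {v : G | ∃ n ∈ Subgroup.normalizer (V : Set G), n * t' * n⁻¹ = v} = 276 ∧
      Subgroup.centralizer ({t'} : Set G) ≤ Subgroup.normalizer (V : Set G))
    {t : G} (M : J4Type13.Model V t) (ht : t ∈ V) (ht1 : t ≠ 1) (htz : ¬ IsConj z t)
    {a : G} (ha : a ∈ V) (ha1 : a ≠ 1) :
    ¬ IsConj z a ↔ ∃ p q : GolayPt, p ≠ q ∧ a = M.F {p, q} := by
  classical
  obtain ⟨z', t', hz', ht', ht'1, hzz', htz', hA, hB, -⟩ := horb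
  set A := {v : G | ∃ n ∈ Subgroup.normalizer (V : Set G), n * z' * n⁻¹ = v} with hAdef
  set B := {v : G | ∃ n ∈ Subgroup.normalizer (V : Set G), n * t' * n⁻¹ = v} with hBdef
  have hAc : ∀ v ∈ A, IsConj z v := fun v ⟨n, _, e⟩ => hzz'.trans (isConj_iff.2 ⟨n, e⟩)
  have hBc : ∀ v ∈ B, ¬ IsConj z v := fun v ⟨n, _, e⟩ hcv =>
    htz' (hcv.trans (isConj_iff.2 ⟨n, e⟩ : IsConj t' v).symm)
  have hdis : Disjoint A B := Set.disjoint_left.2 fun v hv hv' => hBc v hv' (hAc v hv)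
  have hz'1 : z' ≠ 1 := by
    rintro rfl
    rw [isConj_one_left.1 hzz', orderOf_one] at hz
    norm_num at hz
  have hsub : A ∪ B ⊆ (V : Set G) \ {1} := by
    rintro v (⟨n, hn, rfl⟩ | ⟨n, hn, rfl⟩)
    · exact ⟨(Subgroup.mem_normalizer_iff.1 hn z').1 hz', fun e => hz'1 (conj_eq_one_iff.1 e)⟩
    · exact ⟨(Subgroup.mem_normalizer_iff.1 hn t').1 ht', fun e => ht'1 (conj_eq_one_iff.1 e)⟩
  have hAB : (A ∪ B).ncard = 2047 := by rw [Set.ncard_union_eq hdis, hA, hB]
  have hVd : ((V : Set G) \ {1}).ncard = 2047 := by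
    rw [Set.ncard_sdiff_singleton_of_mem (show (1 : G) ∈ (V : Set G) from one_mem V),
      ← Nat.card_coe_set_eq, show Nat.card ↥(V : Set G) = 2 ^ 11 from hc]
    norm_num
  have heq := Set.eq_of_subset_of_ncard_le hsub (by rw [hAB, hVd])
  have memB : ∀ b ∈ V, b ≠ 1 → ¬ IsConj z b → b ∈ B := fun b hb hb1 hbz => by
    rcases heq.ge ⟨hb, hb1⟩ with h | h
    · exact absurd (hAc b h) hbz
    · exact h
  let pairs : Finset (Finset GolayPt) := (Finset.univ : Finset GolayPt).powersetCard 2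
  have hBsub : B ⊆ ↑(pairs.image M.F) := by
    rintro b ⟨n, hn, rfl⟩
    obtain ⟨n', hn', e'⟩ := memB t ht ht1 htz
    set m : ↥(Subgroup.normalizer (V : Set G)) :=
      ⟨n * n'⁻¹, mul_mem hn (inv_mem hn')⟩ with hm
    have h2 : ({none, some 0} : Finset GolayPt).card = 2 := rfl
    have e := M.equiv m {none, some 0} ⟨1, h2⟩
    rw [M.F_base] at e
    rw [Finset.coe_image]
    refine ⟨(M.Φ m : Equiv.Perm GolayPt) • ({none, some 0} : Finset GolayPt), ?_, ?_⟩
    · simp [pairs, Finset.card_smul_finset, h2]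
    · rw [← e, hm, ← e']
      simp [mul_assoc]
  have hle : (pairs.image M.F).card ≤ 276 :=
    Finset.card_image_le.trans (le_of_eq (by
      rw [Finset.card_powersetCard, Finset.card_univ]
      rfl))
  have hBeq : B = ↑(pairs.image M.F) :=
    Set.eq_of_subset_of_ncard_le hBsub (by rwa [Set.ncard_coe_finset, hB])
  constructor
  · intro h
    have hb := memB a ha ha1 h
    rw [hBeq, Finset.coe_image] at hb
    obtain ⟨S, hS, rfl⟩ := hb
    obtain ⟨p, q, hpq, rfl⟩ := Finset.card_eq_two.1 (Finset.mem_powersetCard.1 hS).2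
    exact ⟨p, q, hpq, rfl⟩
  · rintro ⟨p, q, hpq, rfl⟩
    refine hBc _ ?_
    rw [hBeq, Finset.coe_image]
    exact ⟨_, Finset.mem_powersetCard.2 ⟨Finset.subset_univ _, Finset.card_pair hpq⟩, rfl⟩

/-- The model splits over a complement isomorphic to `M24`. -/
theorem exists_section {V K : Subgroup G} {t : G} (M : J4Type13.Model V t)
    (h0 : K ≤ Subgroup.normalizer (V : Set G)) (h1 : K ⊓ V = ⊥) (h3 : Cfsg.Spor.IsoM24 ↥K) :
    ∃ κ : ↥Cfsg.M24 →* ↥(Subgroup.normalizer (V : Set G)), ∀ s, M.Φ (κ s) = s := by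
  obtain ⟨e⟩ := h3
  have hcard : Nat.card ↥K = Nat.card ↥Cfsg.M24 :=
    ((Nat.card_congr e.toEquiv).trans Cfsg.Agent.S0364.result).trans Cfsg.Agent.S0364.result.symm
  let f : ↥K →* ↥Cfsg.M24 := M.Φ.comp (Subgroup.inclusion h0)
  have hf : Function.Injective f := (injective_iff_map_eq_one _).2 fun k hk => by
    have h2 : (k : G) ∈ K ⊓ V := ⟨k.2, (M.mem_ker (Subgroup.inclusion h0 k)).1 hk⟩
    rw [h1, Subgroup.mem_bot] at h2
    exact Subtype.ext h2
  have hb : Function.Bijective f := (Nat.bijective_iff_injective_and_card f).2 ⟨hf, hcard⟩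
  refine ⟨(Subgroup.inclusion h0).comp (MulEquiv.ofBijective f hb).symm.toMonoidHom, fun s => ?_⟩
  exact (MulEquiv.ofBijective f hb).apply_symm_apply s

/-- A group of Janko-four type has the standard configuration. -/
theorem exists_hyp [IsSimpleGroup G] (hG : ¬ IsMulCommutative G)
    (hJ : Cfsg.IsOfJankoFourType G) : ∃ (z : G) (C : Cfg G), Hyp z C := by
  classical
  haveI : Fact (Nat.Prime 2) := ⟨Nat.prime_two⟩
  obtain ⟨z, P, hP⟩ := hJ
  have F := facts_of_type hG hP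
  obtain ⟨T₀, S, hS⟩ := J4Type67.exists_sylow_centralizer hP
  have hSz : ∀ x ∈ (S : Subgroup G), x * z = z * x := by
    intro x hx
    rw [hS] at hx
    obtain ⟨y, -, rfl⟩ := hx
    exact Subgroup.mem_centralizer_singleton_iff.1 y.2
  obtain ⟨V, ⟨hVS, hV, hVc⟩, huniq⟩ := J4Type67.existsUnique_sylow hP S
  obtain ⟨hCV, K, hK0, hK1, hK2, hK3⟩ := F.normV V hV hVc
  have hzV : z ∈ V := hCV (Subgroup.mem_centralizer_iff.2 fun v hv => hSz v (hVS hv))
  obtain ⟨Q, L⟩ := F.loc V hV hVc z hzV (IsConj.refl z)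
  have horb := F.orbits V hV hVc
  obtain ⟨z', t, -, ht, ht1, -, htz, -, -, -⟩ := id horb
  obtain ⟨M⟩ := J4Type13.nonempty_model L hCV
    (J4Type13.card_normalizer hVc hK1 hK2 hK3) ht ht1 htz
  obtain ⟨κ, hκ⟩ := exists_section M hK0 hK1 hK3
  refine ⟨z, ⟨V, t, M, κ, hκ⟩, {
    order_z := hP.1
    z_mem := hzV
    elem := hV
    top := fun T => J4Type67.existsUnique_sylow hP T
    central := ⟨S, hVS, hSz⟩
    classV := fun a ha ha1 => class_pairs hP.1 hVc horb M ht ht1 htz ha ha1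
    centT := fun a ha ha1 haz => ?_
    invol := fun x hx hxz => ?_ }⟩
  · obtain ⟨_, -, -, h⟩ := F.exists_move hV hVc ha ha1 haz
    exact h
  · obtain ⟨W, hxW, hW, hWc⟩ := F.exists_elementary hx
    obtain ⟨T, hT⟩ := (LocalP.isPGroup_of_isElementaryAbelian hW).exists_le_sylow
    obtain ⟨g, hg⟩ := MulAction.exists_smul_eq G T S
    refine ⟨g, ?_⟩
    have hle : W.map (MulAut.conj g).toMonoidHom ≤ (S : Subgroup G) := by
      rintro _ ⟨w, hw, rfl⟩
      rw [← hg]
      exact ⟨w, hT hw, rfl⟩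
    have hWV := huniq _ ⟨hle, LocalP.isElementaryAbelian_map _ hW,
      by rw [Subgroup.card_map_of_injective (MulAut.conj g).injective, hWc]⟩
    exact (SetLike.ext_iff.1 hWV _).1 ⟨x, hxW, rfl⟩

end Glue

end CfsgLib.J4Ten31
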