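import Mathlib

/-!
# The decomposable cone of the exterior square of `F_2^5`

A group of `9999360` elements acting faithfully and linearly on `F_2^10`, preserving the set of
nonzero decomposable bivectors, is `SL_5(2)`.
-/

namespace CfsgLib.J4Ten31

/-- one coordinate of a wedge -/
def wbit (a b i j : ℕ) : ℕ :=
  ((a >>> i) &&& (b >>> j) &&& 1) ^^^ ((a >>> j) &&& (b >>> i) &&& 1)

/-- wedge of two vectors of F2^5 given as bit masks; coordinate n is the n-th pair i<j in lex order
    (01,02,03,04,12,13,14,23,24,34). -/
def wedge5 (a b : ℕ) : ℕ :=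
  wbit a b 0 1 ^^^ (wbit a b 0 2 <<< 1) ^^^ (wbit a b 0 3 <<< 2) ^^^ (wbit a b 0 4 <<< 3) ^^^
    (wbit a b 1 2 <<< 4) ^^^ (wbit a b 1 3 <<< 5) ^^^ (wbit a b 1 4 <<< 6) ^^^
    (wbit a b 2 3 <<< 7) ^^^ (wbit a b 2 4 <<< 8) ^^^ (wbit a b 3 4 <<< 9)

/-- nonzero decomposable bivector -/
def IsWedge (u : ℕ) : Prop := u ≠ 0 ∧ ∃ a < 32, ∃ b < 32, wedge5 a b = u

theorem wbit_xor_left (a a' b i j : ℕ) :
    wbit (a ^^^ a') b i j = wbit a b i j ^^^ wbit a' b i j := by
  simp only [wbit, Nat.shiftRight_xor_distrib, Nat.and_xor_distrib_right]
  ac_rfl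

theorem wedge5_xor_left (a a' b : ℕ) :
    wedge5 (a ^^^ a') b = wedge5 a b ^^^ wedge5 a' b := by
  simp only [wedge5, wbit_xor_left, Nat.shiftLeft_xor_distrib]
  ac_rfl

theorem wbit_comm (a b i j : ℕ) : wbit a b i j = wbit b a i j := by
  simp only [wbit]
  ac_rfl

theorem wedge5_comm (a b : ℕ) : wedge5 a b = wedge5 b a := by
  simp only [wedge5, wbit_comm a b]

theorem wedge5_xor_right (a b b' : ℕ) :
    wedge5 a (b ^^^ b') = wedge5 a b ^^^ wedge5 a b' := by
  rw [wedge5_comm a, wedge5_xor_left, wedge5_comm b a, wedge5_comm b' a]

theorem wedge5_self (a : ℕ) : wedge5 a a = 0 := by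
  have h : ∀ i j, wbit a a i j = 0 := fun i j => by
    rw [wbit, Nat.and_comm (a >>> i) (a >>> j), Nat.xor_self]
  simp [wedge5, h]

theorem wedge5_zero_left (b : ℕ) : wedge5 0 b = 0 := by
  simp [wedge5, wbit]

theorem wedge5_lt_aux : ∀ a < 32, ∀ b < 32, wedge5 a b < 1024 := by decide +kernel

theorem wedge5_eq_zero : ∀ a < 32, ∀ b < 32, wedge5 a b = 0 → a = 0 ∨ b = 0 ∨ a = b := by
  decide +kernel

theorem two_pow_wedge : ∀ n < 10, ∃ a < 32, ∃ b < 32, wedge5 a b = 2 ^ n := by decide +kernel

/-- `starTab[x]` has bit `u` set iff `u` is a wedge with `x` -/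
def starTab : List ℕ :=
  [1,
  65535,
  15577128263718858478524816087515139,
  255212748750078657162720937877208563715,
  12911446400465524920675657255215560089755497693604199848884009382392831235778073739553848753679633236081589185856122716165,
  105769761959526677991240716759984617313774904144481385732365491586192941550378645283626151556013163436082007809058219250810885,
  1841310312678532645812501638840592661618612888283767804466067465123341191661293920444832966704784713440265623455260188763843073939745673701348736565257,
  5028043053867032761077877025527471393087457299044293738559404013323811485278424549805870726789137873012048865022706317216235161015774042972786059431510025,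
  333124065202260776212031146012211410405395677383392302254806373591721285791272640021437164847917303150912126299642731649498270542436987565630947648118788821284027440232062762805369175269521013264932143121,
  682238085454807103410672612666903453196715987743397824820349006162918673465165730957947450780700035264042146881297047465450099976282215848810816806976228027071041645179634508011053514908497010858529294123025,
  781755021024353482383725491735467835585778640091226721862260105617739078642960717341149799489201723943641158645391064327968719548717038355785450914529181460654758778472443153423572941865884616878398117484690005834554849462583329,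
  436645713645959309285392835928720027251504636190228023953835315491963373210657459127908287865960342122374655307571279012532527445666263871927732488513989316610272969448716892628449333700091323739141209045002323278543519736316035105,
  9665609905105624247331930056215366542967615558967246728283281748850819416486971039201660521256455623417469042778995012160491148170464307790206702864088883789306420820339030463058559505362302664147434614044243816480876201082654932823430935486782206465491980809311595968082736772001300545,
  1522705314281252561173215412711559497568652412460345894641939658481832462891172616270043873437534923019090484510003809533473240635487276965111759703251469211027450326983092156657919632433595313181977390454280913190899025719664800714407846730743598484408176648893909479432291533369292881985,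
  5399481229187527765200498273844510574114477136194279484668412682982253103066676277680011631109231370322544142756396741987979223390271962975850827444188761561895551885452135218486130281987795716796221064183638707093085198839297039481263250470401786593767418618743581557820722174537821433678822750814337,
  257167951697277812060512963816296041937022924065831337578649405109260212761271139551570816980294259160919295442406546208928046616139448465115618347472766245844146351772763711490118098091107141638282257649226637281224200256334392655150382777910425441091118959771664591147156531141124691167179194442449025,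
  7360198307048065029934624620675715688448774695782720856767472279892934478438496306637611739022585347226921189513538692173538890349043220028432234595970058455175466566938600632472622955853726689965328492416804285577517086559555032040718730477905414979841,
  942105383302152323806096133864329547556112746433957027637371190616760187380106297192496672090040670770133571986131914429502782314581827141758511987929754200058721762164571963444165525920685240625260557120112288718325110956493424759902942948763643578155265,
  4135362159310856191916535451848612583038871985084618118246217284027210338732960764211659435261261851019923905315935718173393484013478064940423763424130113589083835010083434124092920989846040546585598857329189998010953954432462331285438260913288864679521643286407152129,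
  133105458040040657786714279510389589433329537378217328959720815550981847272693825631030805594634286111170044352058642153416603664322329864837833258625330167192583343579425912274983508727858589510473817431662205643243695889408474673954562489318487884714104598107397292545,
  654635621527388098223290791377977463727001524571109613042357177337914687557586048280762644559315827551374402162285671703684564837452485118426025028033056946176941749879158476602242654414552909848997969521685922909312690147670203402981182269674887750785557149564564782515818818681272222224272589825,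
  5313725240105238026553928908894528522665407061516867411205464896669709251177642894456651383474426228915708504155262539687147066764442083876452113988703279845030795407518990574892189651667531377144715123115770125443986240513466296638586144357050239899467976831193137115297865123163084595117015696385,
  85762544379869903932863098876028618488643310726524706897256122579098461504123311383464698680150592610380730741039162849285783530228039753079954378134533850620192019962199798679365295203936029290161631395620148531896780938210886533468037441382986838582976527152485580746988111915683816407422656890013697,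
  176798920185735335637649772352596944823030266489315489596641304077173320269749100001917723456426842658451865559367658412011893162789710659341516016206987688304645178431642170496876757450587845882181269629025955910359363178008515900067187652566913062821371997257274940653573047794586352741818792962689025,
  171483232954770984918972555705243618704612645262648160696343802175709602512694337292354886197066108398648158582986037261344246757967580261766220308008430781572694239347652846978810507214031264230611596564880900542538986241278176336392367903587765142740522987098311590446085004298856497990021655732162561,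
  91078231610832722280616129170674938347595012783001702318707953079372345236346870627997083450755169146827263845100184032424814554355855809730501398120352273838311731202363166055090125462706025989090076347411001911257074119064717336985659752490886105182245899297916449600183830813847887476008026539823105,
  5232614291144059966524059387481914483707214545474806647229260138636578533963925409523890698855528975754695351476452210734168659820429178144411433953102709000927779438767812834875175641044562300330890980951378388833297392208004697941407347589464217078110236353445807000087877692557265272185171222529,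
  735746572020937082439513019796850968604364230946649222689963125204632808506101580003244308091944772871163420849208611911297986603952082335752441195281066597293401233091030120694334915151792359968297966822276257440728954222460371923285289931851116861233615820053195565583847671887625615567321309185,
  132081693918729783042649648679460544814180076472546173655791068212750821782072434625842936172463035826029545826447400201399220394091113303803751277520822044330480897071084736277789215330247017976166147086228705549638004778415462904748450588632463664428804752251834875905,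
  5159126280621730921409568212075357982390682210407511846962448928744734052781566639885296637526625980239793976098780270948858824626666022954766419006786916070786528876406602694729143165437537550996837411939491950031254807755248263514347010755290307258782347062935568385,
  938482562393460235061415469820654967620823392385788997545349294340491108596652530190130676331928528576306653912899705856773530754742694729059912802406339683065415935856332396791623916926836230251303859573845872245661547878387288699365741329963884937773057,
  10997590813810856073835523742499310868976110036888256115581037795883382411472914874651382358852958425119685984059002281264684692495231701893888613036561906348375234917496434523327267225081405111335240289044673543674259841804273107589334072122850469249025]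

/-- the 155 lines of `PG(4,2)` with their wedges -/
def lineList : List (ℕ × ℕ × ℕ) :=
  [(1, 2, 1), (1, 4, 2), (1, 6, 3), (1, 8, 4), (1, 10, 5), (1, 12, 6), (1, 14, 7), (1, 16, 8),
  (1, 18, 9), (1, 20, 10), (1, 22, 11), (1, 24, 12), (1, 26, 13), (1, 28, 14), (1, 30, 15), (2, 4, 16),
  (2, 5, 17), (2, 8, 32), (2, 9, 33), (2, 12, 48), (2, 13, 49), (2, 16, 64), (2, 17, 65), (2, 20, 80),
  (2, 21, 81), (2, 24, 96), (2, 25, 97), (2, 28, 112), (2, 29, 113), (3, 4, 18), (3, 5, 19), (3, 8, 36),
  (3, 9, 37), (3, 12, 54), (3, 13, 55), (3, 16, 72), (3, 17, 73), (3, 20, 90), (3, 21, 91), (3, 24, 108),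
  (3, 25, 109), (3, 28, 126), (3, 29, 127), (4, 8, 128), (4, 9, 130), (4, 10, 144), (4, 11, 146), (4, 16, 256),
  (4, 17, 258), (4, 18, 272), (4, 19, 274), (4, 24, 384), (4, 25, 386), (4, 26, 400), (4, 27, 402), (5, 8, 132),
  (5, 9, 134), (5, 10, 149), (5, 11, 151), (5, 16, 264), (5, 17, 266), (5, 18, 281), (5, 19, 283), (5, 24, 396),
  (5, 25, 398), (5, 26, 413), (5, 27, 415), (6, 8, 160), (6, 9, 163), (6, 10, 176), (6, 11, 179), (6, 16, 320),
  (6, 17, 323), (6, 18, 336), (6, 19, 339), (6, 24, 480), (6, 25, 483), (6, 26, 496), (6, 27, 499), (7, 8, 164),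
  (7, 9, 167), (7, 10, 181), (7, 11, 182), (7, 16, 328), (7, 17, 331), (7, 18, 345), (7, 19, 346), (7, 24, 492),
  (7, 25, 495), (7, 26, 509), (7, 27, 510), (8, 16, 512), (8, 17, 516), (8, 18, 544), (8, 19, 548), (8, 20, 640),
  (8, 21, 644), (8, 22, 672), (8, 23, 676), (9, 16, 520), (9, 17, 524), (9, 18, 553), (9, 19, 557), (9, 20, 650),
  (9, 21, 654), (9, 22, 683), (9, 23, 687), (10, 16, 576), (10, 17, 581), (10, 18, 608), (10, 19, 613), (10, 20, 720),
  (10, 21, 725), (10, 22, 752), (10, 23, 757), (11, 16, 584), (11, 17, 589), (11, 18, 617), (11, 19, 620), (11, 20, 730),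
  (11, 21, 735), (11, 22, 763), (11, 23, 766), (12, 16, 768), (12, 17, 774), (12, 18, 816), (12, 19, 822), (12, 20, 896),
  (12, 21, 902), (12, 22, 944), (12, 23, 950), (13, 16, 776), (13, 17, 782), (13, 18, 825), (13, 19, 831), (13, 20, 906),
  (13, 21, 908), (13, 22, 955), (13, 23, 957), (14, 16, 832), (14, 17, 839), (14, 18, 880), (14, 19, 887), (14, 20, 976),
  (14, 21, 983), (14, 22, 992), (14, 23, 999), (15, 16, 840), (15, 17, 847), (15, 18, 889), (15, 19, 894), (15, 20, 986),
  (15, 21, 989), (15, 22, 1003), (15, 23, 1004)]

/-- bit `u` is set iff `u` is a nonzero decomposable bivector -/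
def coneMask : ℕ :=
  262567432926466872196637648448325973058480168976889728683345837105383836524705515179516799038768043768440813472996187173832642213696448780787785903180800242798601906354329156314518561568052686201782514843795739000520192293208280631956201386131852559644003929679336521238322448257047841762304644736876542

theorem starTab_mem : ∀ x < 32, ∀ d < 32, (starTab.getD x 0).testBit (wedge5 x d) = true := by
  decide +kernel

theorem starTab_line_aux : ∀ a < 32, ∀ b < 32, ∀ x < 32,
    (wedge5 a b == 0 || !(starTab.getD x 0).testBit (wedge5 a b) ||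
      x == a || x == b || x == a ^^^ b) = true := by
  decide +kernel

theorem starTab_line (a : ℕ) (ha : a < 32) (b : ℕ) (hb : b < 32) (x : ℕ) (hx : x < 32)
    (h0 : wedge5 a b ≠ 0) (h : (starTab.getD x 0).testBit (wedge5 a b) = true) :
    x = a ∨ x = b ∨ x = a ^^^ b := by
  have h' := starTab_line_aux a ha b hb x hx
  simp only [h, Bool.not_true, Bool.or_eq_true, beq_iff_eq, Bool.false_eq_true, or_false] at h'
  tauto

theorem starTab_inj : ∀ a < 32, ∀ b < 32,
    (∀ d < 32, (starTab.getD b 0).testBit (wedge5 a d) = true) →
    (∀ d < 32, (starTab.getD a 0).testBit (wedge5 b d) = true) → a = b := by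
  decide +kernel

theorem lineList_sound : ∀ e ∈ lineList,
    e.1 < 32 ∧ e.2.1 < 32 ∧ wedge5 e.1 e.2.1 = e.2.2 := by
  decide +kernel

theorem lineList_complete : ∀ a < 32, ∀ b < 32, wedge5 a b ≠ 0 →
    (∃ e ∈ lineList, e.2.2 = wedge5 a b) ∧ coneMask.testBit (wedge5 a b) = true := by
  decide +kernel

theorem lineList_meet : ∀ e ∈ lineList, ∀ f ∈ lineList,
    coneMask.testBit (e.2.2 ^^^ f.2.2) = true →
      ∃ p ∈ [e.1, e.2.1, e.1 ^^^ e.2.1], p ∈ [f.1, f.2.1, f.1 ^^^ f.2.1] := by
  decide +kernel

theorem xor_lt_32 {a b : ℕ} (ha : a < 32) (hb : b < 32) : a ^^^ b < 32 :=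
  Nat.xor_lt_two_pow (n := 5) ha hb

theorem xor_lt_1024 {a b : ℕ} (ha : a < 1024) (hb : b < 1024) : a ^^^ b < 1024 :=
  Nat.xor_lt_two_pow (n := 10) ha hb

/-! ### Points on a line -/

/-- the point `x` lies on the line `u` -/
def OnLine (x u : ℕ) : Prop := ∃ d < 32, wedge5 x d = u

theorem IsWedge.lt {u : ℕ} (h : IsWedge u) : u < 1024 := by
  obtain ⟨-, a, ha, b, hb, rfl⟩ := h
  exact wedge5_lt_aux a ha b hb

theorem onLine_cases {a b x : ℕ} (ha : a < 32) (hb : b < 32) (hx : x < 32)
    (h0 : wedge5 a b ≠ 0) (h : OnLine x (wedge5 a b)) : x = a ∨ x = b ∨ x = a ^^^ b := by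
  obtain ⟨d, hd, he⟩ := h
  exact starTab_line a ha b hb x hx h0 (he ▸ starTab_mem x hx d hd)

theorem onLine_of_mem {a b x : ℕ} (ha : a < 32) (hb : b < 32)
    (h : x ∈ [a, b, a ^^^ b]) : OnLine x (wedge5 a b) := by
  simp only [List.mem_cons, List.not_mem_nil, or_false] at h
  rcases h with rfl | rfl | rfl
  · exact ⟨b, hb, rfl⟩
  · exact ⟨a, ha, wedge5_comm _ _⟩
  · exact ⟨a, ha, by rw [wedge5_xor_left, wedge5_self, Nat.zero_xor, wedge5_comm]⟩

theorem wedge5_eq_of_onLine {p q u : ℕ} (hp : p < 32) (hq : q < 32) (hpq : p ≠ q) (hu : u ≠ 0)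
    (h1 : OnLine p u) (h2 : OnLine q u) : wedge5 p q = u := by
  obtain ⟨d, hd, rfl⟩ := h1
  rcases onLine_cases hp hd hq hu h2 with rfl | rfl | rfl
  · exact absurd rfl hpq
  · rfl
  · rw [wedge5_xor_right, wedge5_self, Nat.zero_xor]

theorem exists_common {u v : ℕ} (hu : IsWedge u) (hv : IsWedge v) (huv : IsWedge (u ^^^ v)) :
    ∃ p < 32, OnLine p u ∧ OnLine p v := by
  obtain ⟨hu0, a, ha, b, hb, rfl⟩ := hu
  obtain ⟨hv0, c, hc, d, hd, rfl⟩ := hv
  obtain ⟨huv0, s, hs, t, ht, hst⟩ := huv
  obtain ⟨⟨e, he, hee⟩, -⟩ := lineList_complete a ha b hb hu0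
  obtain ⟨⟨f, hf, hfe⟩, -⟩ := lineList_complete c hc d hd hv0
  obtain ⟨-, hm⟩ := lineList_complete s hs t ht (hst ▸ huv0)
  obtain ⟨p, hp1, hp2⟩ := lineList_meet e he f hf (by rw [hee, hfe, ← hst]; exact hm)
  obtain ⟨he1, he2, hew⟩ := lineList_sound e he
  obtain ⟨hf1, hf2, hfw⟩ := lineList_sound f hf
  refine ⟨p, ?_, ?_, ?_⟩
  · simp only [List.mem_cons, List.not_mem_nil, or_false] at hp1
    rcases hp1 with rfl | rfl | rfl
    · exact he1
    · exact he2
    · exact xor_lt_32 he1 he2
  · rw [← hee, ← hew]; exact onLine_of_mem he1 he2 hp1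
  · rw [← hfe, ← hfw]; exact onLine_of_mem hf1 hf2 hp2

/-- all bivectors through the point `a` -/
def Star (a : ℕ) : Finset ℕ := (Finset.range 32).image (wedge5 a)

theorem mem_Star {a u : ℕ} : u ∈ Star a ↔ OnLine a u := by
  simp [Star, OnLine]

theorem card_Star : ∀ a < 32, a ≠ 0 → (Star a).card = 16 := by decide +kernel

theorem Star_zero : Star 0 = {0} := by decide +kernel

theorem Star_inj {a b : ℕ} (ha : a < 32) (hb : b < 32) (h : Star a = Star b) : a = b := by
  refine starTab_inj a ha b hb (fun d hd => ?_) (fun d hd => ?_)
  · obtain ⟨e, he, hee⟩ : OnLine b (wedge5 a d) := mem_Star.1 (h ▸ mem_Star.2 ⟨d, hd, rfl⟩)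
    exact hee ▸ starTab_mem b hb e he
  · obtain ⟨e, he, hee⟩ : OnLine a (wedge5 b d) :=
      mem_Star.1 (h.symm ▸ mem_Star.2 ⟨d, hd, rfl⟩)
    exact hee ▸ starTab_mem a ha e he

/-- a maximal linear space inside the cone is a star -/
theorem eq_Star_of_closed (W : Finset ℕ) (hcl : ∀ u ∈ W, ∀ v ∈ W, u ^^^ v ∈ W)
    (hw : ∀ u ∈ W, u ≠ 0 → IsWedge u) (hcard : W.card = 16) :
    ∃ a < 32, W = Star a := by
  by_cases hall : ∃ p < 32, ∀ u ∈ W, u ≠ 0 → OnLine p u
  · obtain ⟨p, hp, hpu⟩ := hall
    have hsub : W ⊆ Star p := by
      intro u hu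
      rcases eq_or_ne u 0 with rfl | h0
      · exact mem_Star.2 ⟨p, hp, wedge5_self p⟩
      · exact mem_Star.2 (hpu u hu h0)
    have hp0 : p ≠ 0 := by
      rintro rfl
      have hle := Finset.card_le_card hsub
      rw [hcard, Star_zero, Finset.card_singleton] at hle
      omega
    exact ⟨p, hp, Finset.eq_of_subset_of_card_le hsub (by rw [hcard, card_Star p hp hp0])⟩
  push Not at hall
  exfalso
  have hcomm : ∀ u ∈ W, ∀ v ∈ W, u ≠ 0 → v ≠ 0 → u ≠ v →
      ∃ p < 32, OnLine p u ∧ OnLine p v := fun u hu v hv hu0 hv0 huv =>
    exists_common (hw u hu hu0) (hw v hv hv0)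
      (hw _ (hcl u hu v hv) fun h => huv (Nat.xor_eq_zero_iff.1 h))
  obtain ⟨u, hu, hu0, -⟩ := hall 0 (by omega)
  obtain ⟨v, hv, hv0, hvu⟩ : ∃ v ∈ W, v ≠ 0 ∧ v ≠ u := by
    by_contra hne
    push Not at hne
    have hsub : W ⊆ {0, u} := fun x hx => by
      simp only [Finset.mem_insert, Finset.mem_singleton]
      by_cases hx0 : x = 0
      · exact Or.inl hx0
      · exact Or.inr (hne x hx hx0)
    have hle := (Finset.card_le_card hsub).trans Finset.card_le_two
    omega
  obtain ⟨a, ha, hau, hav⟩ := hcomm u hu v hv hu0 hv0 (Ne.symm hvu)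
  obtain ⟨w, hww, hw0, haw⟩ := hall a ha
  have hwu : w ≠ u := fun h => haw (h ▸ hau)
  have hwv : w ≠ v := fun h => haw (h ▸ hav)
  obtain ⟨b, hb, hbu, hbw⟩ := hcomm u hu w hww hu0 hw0 hwu.symm
  obtain ⟨c, hc, hcv, hcw⟩ := hcomm v hv w hww hv0 hw0 hwv.symm
  have hab : a ≠ b := fun h => haw (h ▸ hbw)
  have hac : a ≠ c := fun h => haw (h ▸ hcw)
  have eu : wedge5 a b = u := wedge5_eq_of_onLine ha hb hab hu0 hau hbu
  have hbc : b ≠ c := by
    intro h
    exact hvu ((wedge5_eq_of_onLine ha hb hab hv0 hav (h.symm ▸ hcv)).symm.trans eu)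
  have ev : wedge5 a c = v := wedge5_eq_of_onLine ha hc hac hv0 hav hcv
  have ew : wedge5 b c = w := wedge5_eq_of_onLine hb hc hbc hw0 hbw hcw
  have hsub : W ⊆ [0, u, v, w, u ^^^ v, u ^^^ w, v ^^^ w, u ^^^ (v ^^^ w)].toFinset := by
    intro x hx
    simp only [List.mem_toFinset, List.mem_cons, List.not_mem_nil, or_false]
    by_cases hx0 : x = 0
    · simp [hx0]
    by_cases hxu : x = u
    · simp [hxu]
    by_cases hxv : x = v
    · simp [hxv]
    by_cases hxw : x = w
    · simp [hxw]
    obtain ⟨p, hp, hpx, hpu⟩ := hcomm x hx u hu hx0 hu0 hxu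
    obtain ⟨q, hq, hqx, hqv⟩ := hcomm x hx v hv hx0 hv0 hxv
    obtain ⟨r, hr, hrx, hrw⟩ := hcomm x hx w hww hx0 hw0 hxw
    by_cases hpq : p = q
    · subst hpq
      have hpa : p = a := by
        by_contra hne
        exact hvu ((wedge5_eq_of_onLine hp ha hne hv0 hqv hav).symm.trans
          (wedge5_eq_of_onLine hp ha hne hu0 hpu hau))
      subst hpa
      have hra : p ≠ r := fun h => haw (h ▸ hrw)
      have ex : wedge5 p r = x := wedge5_eq_of_onLine hp hr hra hx0 hpx hrx
      rcases onLine_cases hb hc hr (ew ▸ hw0) (ew ▸ hrw) with rfl | rfl | rfl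
      · exact absurd (ex.symm.trans eu) hxu
      · exact absurd (ex.symm.trans ev) hxv
      · rw [wedge5_xor_right, eu, ev] at ex
        simp [← ex]
    · have ex : wedge5 p q = x := wedge5_eq_of_onLine hp hq hpq hx0 hpx hqx
      have eba : wedge5 b a = u := (wedge5_comm b a).trans eu
      rcases onLine_cases ha hb hp (eu ▸ hu0) (eu ▸ hpu) with rfl | rfl | rfl <;>
        rcases onLine_cases ha hc hq (ev ▸ hv0) (ev ▸ hqv) with rfl | rfl | rfl <;>
        simp only [wedge5_xor_left, wedge5_xor_right, wedge5_self, ev, ew, eba,
          Nat.zero_xor] at ex <;>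
        simp [← ex]
  have hle := (Finset.card_le_card hsub).trans (List.toFinset_card_le _)
  simp at hle
  omega

/-! ### Vectors -/

/-- bit mask of a vector -/
def enc (v : Fin 5 → ZMod 2) : ℕ :=
  (v 0).val + 2 * (v 1).val + 4 * (v 2).val + 8 * (v 3).val + 16 * (v 4).val

/-- vector of a bit mask -/
def dec (u : ℕ) : Fin 5 → ZMod 2 := fun i => if u.testBit i then 1 else 0

theorem enc_lt : ∀ v, enc v < 32 := by decide +kernel

theorem dec_enc : ∀ v, dec (enc v) = v := by decide +kernel

theorem enc_dec : ∀ u < 32, enc (dec u) = u := by decide +kernel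

theorem dec_xor (a b : ℕ) : dec (a ^^^ b) = dec a + dec b := by
  funext i
  simp only [dec, Pi.add_apply, Nat.testBit_xor]
  cases a.testBit i <;> cases b.testBit i <;> decide

theorem enc_add (v w : Fin 5 → ZMod 2) : enc (v + w) = enc v ^^^ enc w := by
  conv_lhs => rw [← dec_enc v, ← dec_enc w, ← dec_xor]
  exact enc_dec _ (xor_lt_32 (enc_lt v) (enc_lt w))

theorem card_SL5 :
    Nat.card (Matrix.SpecialLinearGroup (Fin 5) (ZMod 2)) = 9999360 := by
  have h1 : ∀ g : GL (Fin 5) (ZMod 2), (g : Matrix (Fin 5) (Fin 5) (ZMod 2)).det = 1 := by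
    intro g
    have h : ∀ z w : ZMod 2, z * w = 1 → z = 1 := by decide
    exact h _ ((g⁻¹ : GL (Fin 5) (ZMod 2)) : Matrix (Fin 5) (Fin 5) (ZMod 2)).det
      (by rw [← Matrix.det_mul, ← Units.val_mul, mul_inv_cancel, Units.val_one, Matrix.det_one])
  have e : GL (Fin 5) (ZMod 2) ≃ Matrix.SpecialLinearGroup (Fin 5) (ZMod 2) :=
    Equiv.ofBijective (fun g => ⟨g, h1 g⟩)
      ⟨fun g h e => Units.ext (congrArg Subtype.val e), fun s => ⟨s.toGL, Subtype.ext rfl⟩⟩
  have : Fact (Nat.Prime 2) := ⟨Nat.prime_two⟩
  rw [← Nat.card_congr e, Matrix.card_GL_field, ZMod.card, Fin.prod_univ_five]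
  decide

theorem exists_equiv_SL {X M : Type*} [Group X] [Finite X] [Group M]
    (ρ : X →* MulAut M) (hinj : Function.Injective ρ)
    (ι : ℕ → M) (hbij : ∀ m : M, ∃! u, u < 1024 ∧ ι u = m)
    (hmul : ∀ a < 1024, ∀ b < 1024, ι (a ^^^ b) = ι a * ι b)
    (hcone : ∀ x : X, ∀ u < 1024, IsWedge u → ∃ u' < 1024, IsWedge u' ∧ ρ x (ι u) = ι u')
    (hcard : Nat.card X = 9999360) :
    Nonempty (X ≃* Matrix.SpecialLinearGroup (Fin 5) (ZMod 2)) := by
  classical
  choose J hJ hJu using fun m => (hbij m)
  have Jι : ∀ u < 1024, J (ι u) = u := fun u hu => (hJu (ι u) u ⟨hu, rfl⟩).symm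
  have ι0 : ι 0 = 1 := by
    have h := hmul 0 (by omega) 0 (by omega)
    rw [Nat.xor_self] at h
    exact left_eq_mul.1 h
  let g : X → ℕ → ℕ := fun x u => J (ρ x (ι u))
  have g_lt : ∀ x u, g x u < 1024 := fun x u => (hJ _).1
  have ι_g : ∀ x u, ι (g x u) = ρ x (ι u) := fun x u => (hJ _).2
  have g_eq : ∀ x u v, v < 1024 → ι v = ρ x (ι u) → g x u = v :=
    fun x u v hv h => (hJu _ v ⟨hv, h⟩).symm
  have g_xor : ∀ x a b, a < 1024 → b < 1024 → g x (a ^^^ b) = g x a ^^^ g x b := by
    intro x a b ha hb
    refine g_eq x _ _ (xor_lt_1024 (g_lt x a) (g_lt x b)) ?_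
    rw [hmul _ (g_lt x a) _ (g_lt x b), hmul a ha b hb, map_mul, ι_g, ι_g]
  have g_zero : ∀ x, g x 0 = 0 := fun x => g_eq x 0 0 (by omega) (by rw [ι0, map_one])
  have g_inj : ∀ x a b, a < 1024 → b < 1024 → g x a = g x b → a = b := by
    intro x a b ha hb h
    have h2 := congrArg ι h
    rw [ι_g, ι_g] at h2
    rw [← Jι a ha, ← Jι b hb, (ρ x).injective h2]
  have g_mul : ∀ x y u, g (x * y) u = g x (g y u) := by
    intro x y u
    refine g_eq _ _ _ (g_lt _ _) ?_
    rw [ι_g, ι_g, map_mul, MulAut.mul_apply]
  have g_one : ∀ u < 1024, g 1 u = u := fun u hu => g_eq 1 u u hu (by simp)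
  have g_wedge : ∀ x u, IsWedge u → IsWedge (g x u) := by
    intro x u hu
    obtain ⟨u', hu', hw', he⟩ := hcone x u hu.lt hu
    rw [g_eq x u u' hu' he.symm]
    exact hw'
  have star_lt : ∀ a < 32, ∀ u ∈ Star a, u < 1024 := by
    intro a ha u hu
    obtain ⟨d, hd, rfl⟩ := mem_Star.1 hu
    exact wedge5_lt_aux a ha d hd
  -- the induced map on points
  have hex : ∀ x, ∀ a < 32, ∃ c < 32, (Star a).image (g x) = Star c := by
    intro x a ha
    rcases eq_or_ne a 0 with rfl | ha0
    · exact ⟨0, ha, by simp [Star_zero, g_zero]⟩
    refine eq_Star_of_closed _ ?_ ?_ ?_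
    · simp only [Finset.mem_image]
      rintro u ⟨u', hu', rfl⟩ v ⟨v', hv', rfl⟩
      refine ⟨u' ^^^ v', ?_, g_xor x u' v' (star_lt a ha u' hu') (star_lt a ha v' hv')⟩
      obtain ⟨d, hd, rfl⟩ := mem_Star.1 hu'
      obtain ⟨e, he, rfl⟩ := mem_Star.1 hv'
      exact mem_Star.2 ⟨d ^^^ e, xor_lt_32 hd he, wedge5_xor_right a d e⟩
    · simp only [Finset.mem_image]
      rintro u ⟨u', hu', rfl⟩ h0
      obtain ⟨d, hd, rfl⟩ := mem_Star.1 hu'
      exact g_wedge x _ ⟨fun h => h0 (by rw [h, g_zero]), a, ha, d, hd, rfl⟩
    · rw [Finset.card_image_of_injOn, card_Star a ha ha0]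
      intro u hu v hv h
      exact g_inj x u v (star_lt a ha u hu) (star_lt a ha v hv) h
  choose σ hσlt hσ using hex
  have σ_unique : ∀ x a (ha : a < 32) c, c < 32 → (Star a).image (g x) = Star c → σ x a ha = c :=
    fun x a ha c hc h => Star_inj (hσlt x a ha) hc ((hσ x a ha).symm.trans h)
  have σ_mul : ∀ x y a (ha : a < 32), σ (x * y) a ha = σ x (σ y a ha) (hσlt y a ha) := by
    intro x y a ha
    refine σ_unique _ a ha _ (hσlt _ _ _) ?_
    rw [← hσ x (σ y a ha), ← hσ y a ha, Finset.image_image]
    exact Finset.image_congr fun u _ => g_mul x y u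
  have σ_one : ∀ a (ha : a < 32), σ 1 a ha = a := by
    intro a ha
    refine σ_unique 1 a ha a ha ?_
    conv_rhs => rw [← Finset.image_id (s := Star a)]
    exact Finset.image_congr fun u hu => g_one u (star_lt a ha u hu)
  have σ_zero : ∀ x (h : 0 < 32), σ x 0 h = 0 := fun x h =>
    σ_unique x 0 h 0 h (by simp [Star_zero, g_zero])
  have σ_inj : ∀ x a (ha : a < 32) b (hb : b < 32), σ x a ha = σ x b hb → a = b := by
    intro x a ha b hb h
    have key : ∀ a (ha : a < 32), σ x⁻¹ (σ x a ha) (hσlt x a ha) = a := fun a ha => by
      rw [← σ_mul]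
      simp only [inv_mul_cancel, σ_one]
    rw [← key a ha, ← key b hb]
    simp only [h]
  have g_edge : ∀ x a (ha : a < 32) b (hb : b < 32),
      g x (wedge5 a b) = wedge5 (σ x a ha) (σ x b hb) := by
    intro x a ha b hb
    by_cases h0 : wedge5 a b = 0
    · rw [h0, g_zero]
      rcases wedge5_eq_zero a ha b hb h0 with rfl | rfl | rfl
      · rw [σ_zero, wedge5_zero_left]
      · rw [σ_zero, wedge5_comm, wedge5_zero_left]
      · rw [wedge5_self]
    · have hne : g x (wedge5 a b) ≠ 0 := fun h =>
        h0 (g_inj x _ 0 (wedge5_lt_aux a ha b hb) (by omega) (h.trans (g_zero x).symm))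
      have m1 : OnLine (σ x a ha) (g x (wedge5 a b)) := by
        rw [← mem_Star, ← hσ x a ha]
        exact Finset.mem_image_of_mem _ (mem_Star.2 ⟨b, hb, rfl⟩)
      have m2 : OnLine (σ x b hb) (g x (wedge5 a b)) := by
        rw [← mem_Star, ← hσ x b hb]
        exact Finset.mem_image_of_mem _ (mem_Star.2 ⟨a, ha, wedge5_comm b a⟩)
      refine (wedge5_eq_of_onLine (hσlt _ _ _) (hσlt _ _ _) (fun h => ?_) hne m1 m2).symm
      exact h0 (by rw [σ_inj x a ha b hb h, wedge5_self])
  have σ_xor : ∀ x a (ha : a < 32) b (hb : b < 32),
      σ x (a ^^^ b) (xor_lt_32 ha hb) = σ x a ha ^^^ σ x b hb := by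
    intro x a ha b hb
    by_cases h0 : wedge5 a b = 0
    · rcases wedge5_eq_zero a ha b hb h0 with rfl | rfl | rfl
      · simp only [Nat.zero_xor, σ_zero]
      · simp only [Nat.xor_zero, σ_zero]
      · simp only [Nat.xor_self, σ_zero]
    · have hc := xor_lt_32 ha hb
      have hab : wedge5 (σ x a ha) (σ x b hb) ≠ 0 := by
        rw [← g_edge]
        exact fun h =>
          h0 (g_inj x _ 0 (wedge5_lt_aux a ha b hb) (by omega) (h.trans (g_zero x).symm))
      have hline : OnLine (σ x (a ^^^ b) hc) (wedge5 (σ x a ha) (σ x b hb)) :=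
        ⟨σ x a ha, hσlt _ _ _, by
          rw [← g_edge, ← g_edge, wedge5_xor_left, wedge5_self, Nat.zero_xor, wedge5_comm]⟩
      rcases onLine_cases (hσlt _ _ _) (hσlt _ _ _) (hσlt _ _ _) hab hline with h | h | h
      · exfalso
        have hb0 : b = 0 := by
          have := congrArg (a ^^^ ·) (σ_inj _ _ _ _ _ h)
          simpa [← Nat.xor_assoc] using this
        exact h0 (by rw [hb0, wedge5_comm, wedge5_zero_left])
      · exfalso
        have ha0 : a = 0 := by
          have := congrArg (· ^^^ b) (σ_inj _ _ _ _ _ h)
          simpa [Nat.xor_assoc] using this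
        exact h0 (by rw [ha0, wedge5_zero_left])
      · exact h
  -- the linear maps
  let F : X → ((Fin 5 → ZMod 2) →+ (Fin 5 → ZMod 2)) := fun x =>
    AddMonoidHom.mk' (fun v => dec (σ x (enc v) (enc_lt v))) fun v w => by
      rw [← dec_xor, ← σ_xor]
      simp only [enc_add]
  let T : X → ((Fin 5 → ZMod 2) →ₗ[ZMod 2] (Fin 5 → ZMod 2)) := fun x =>
    (F x).toZModLinearMap 2
  have T_apply : ∀ x v, T x v = dec (σ x (enc v) (enc_lt v)) := fun _ _ => rfl
  have T_mul : ∀ x y, T (x * y) = (T x).comp (T y) := by
    intro x y
    refine LinearMap.ext fun v => ?_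
    simp only [LinearMap.comp_apply, T_apply, σ_mul, enc_dec _ (hσlt y (enc v) (enc_lt v))]
  have T_one : T 1 = LinearMap.id := by
    refine LinearMap.ext fun v => ?_
    simp only [T_apply, σ_one, dec_enc, LinearMap.id_apply]
  let A : X → Matrix (Fin 5) (Fin 5) (ZMod 2) := fun x => LinearMap.toMatrix' (T x)
  have A_mul : ∀ x y, A (x * y) = A x * A y := fun x y => by
    simp only [A, T_mul, LinearMap.toMatrix'_comp]
  have A_one : A 1 = 1 := by
    simp only [A, T_one, LinearMap.toMatrix'_id]
  have A_det : ∀ x, (A x).det = 1 := by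
    intro x
    have h : ∀ z w : ZMod 2, z * w = 1 → z = 1 := by decide
    exact h _ (A x⁻¹).det
      (by rw [← Matrix.det_mul, ← A_mul, mul_inv_cancel, A_one, Matrix.det_one])
  let φ : X →* Matrix.SpecialLinearGroup (Fin 5) (ZMod 2) :=
    MonoidHom.mk' (fun x => ⟨A x, A_det x⟩) fun x y => Subtype.ext (A_mul x y)
  have φ_inj : Function.Injective φ := by
    refine (injective_iff_map_eq_one φ).2 fun x hx => hinj ?_
    have hA : A x = 1 := congrArg Subtype.val hx
    have hT : T x = T 1 := LinearMap.toMatrix'.injective (hA.trans A_one.symm)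
    have hσid : ∀ a (ha : a < 32), σ x a ha = a := by
      intro a ha
      have h := congrArg enc (DFunLike.congr_fun hT (dec a))
      simp only [T_apply, enc_dec _ ha, enc_dec _ (hσlt x a ha), σ_one] at h
      exact h
    have hbasis : ∀ n < 10, g x (2 ^ n) = 2 ^ n := by
      intro n hn
      obtain ⟨a, ha, b, hb, he⟩ := two_pow_wedge n hn
      rw [← he, g_edge x a ha b hb, hσid, hσid]
    have hall : ∀ k ≤ 10, ∀ u < 2 ^ k, g x u = u := by
      intro k
      induction k with
      | zero =>
        intro _ u hu
        obtain rfl : u = 0 := by simpa using hu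
        exact g_zero x
      | succ k ih =>
        intro hk u hu
        by_cases hlt : u < 2 ^ k
        · exact ih (by omega) u hlt
        have h1 : 2 ^ k < 1024 := Nat.pow_lt_pow_right (a := 2) (by omega) (n := 10) (by omega)
        have hu' : u < 1024 :=
          lt_of_lt_of_le hu (Nat.pow_le_pow_right (n := 2) (by omega) (j := 10) hk)
        have h2 : u ^^^ 2 ^ k < 2 ^ k := by
          apply Nat.lt_pow_two_of_testBit
          intro i hi
          rw [Nat.testBit_xor, Nat.testBit_two_pow]
          rcases eq_or_lt_of_le hi with rfl | hi'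
          · simp
            exact Nat.testBit_of_two_pow_le_and_two_pow_add_one_gt (not_lt.1 hlt) hu
          · have : u.testBit i = false := Nat.testBit_eq_false_of_lt
              (lt_of_lt_of_le hu (Nat.pow_le_pow_right (by omega) hi'))
            simp [this, Nat.ne_of_lt hi']
        have h3 : u = (u ^^^ 2 ^ k) ^^^ 2 ^ k := by
          rw [Nat.xor_assoc, Nat.xor_self, Nat.xor_zero]
        have h4 := g_xor x (u ^^^ 2 ^ k) (2 ^ k) (xor_lt_1024 hu' h1) h1
        rw [← h3, ih (by omega) _ h2, hbasis k (by omega), ← h3] at h4
        exact h4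
    rw [map_one]
    refine MulEquiv.ext fun m => ?_
    obtain ⟨u, ⟨hu, rfl⟩, -⟩ := hbij m
    rw [MulAut.one_apply, ← ι_g, hall 10 le_rfl u hu]
  exact ⟨MulEquiv.ofBijective φ
    ((Nat.bijective_iff_injective_and_card _).2 ⟨φ_inj, by rw [hcard, card_SL5]⟩)⟩

end CfsgLib.J4Ten31
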