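import Cfsg.Agent.J4Ten31.Defs

/-!
What is used of a group of Janko-four type around a split normaliser `2 ^ 11 : M24`.
-/

set_option autoImplicit false

namespace CfsgLib.J4Ten31

open Cfsg

/-- The ambient facts. -/
structure Hyp {G : Type*} [Group G] [Finite G] (z : G) (C : Cfg G) : Prop where
  order_z : orderOf z = 2
  z_mem : z ∈ C.V
  elem : Cfsg.IsElementaryAbelian 2 C.V
  top : ∀ T : Sylow 2 G, ∃! W : Subgroup G,
    W ≤ (T : Subgroup G) ∧ Cfsg.IsElementaryAbelian 2 W ∧ Nat.card ↥W = 2 ^ 11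
  central : ∃ T : Sylow 2 G, C.V ≤ (T : Subgroup G) ∧ ∀ x ∈ (T : Subgroup G), x * z = z * x
  classV : ∀ a ∈ C.V, a ≠ 1 → (¬ IsConj z a ↔ ∃ p q : GolayPt, p ≠ q ∧ a = C.M.F {p, q})
  centT : ∀ a ∈ C.V, a ≠ 1 → ¬ IsConj z a →
    Subgroup.centralizer ({a} : Set G) ≤ Subgroup.normalizer (C.V : Set G)
  invol : ∀ x : G, orderOf x = 2 → ¬ IsConj z x → ∃ g : G, g * x * g⁻¹ ∈ C.V

end CfsgLib.J4Ten31
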