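import Cfsg.Agent.J4Ten31.OrbitsData
import Cfsg.Agent.J4Ten31.Grass

/-!
The four orbits, of lengths 28, 35, 120 and 840, of the joint normaliser of the standard subgroup of
order `2 ^ 10` and of `V` on the nonidentity members of that subgroup, with linear coordinates in
which the union of the second and third orbit is the cone of nonzero decomposable bivectors.
-/

set_option autoImplicit false
set_option maxRecDepth 100000

namespace CfsgLib.J4Ten31

open Cfsg
open CfsgLib.Mathieu.Code (code cmpC idC)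

/-- The four orbits on the standard subgroup, with coordinates. -/
structure Cfg.Orbits {G : Type*} [Group G] [Finite G] (C : Cfg G) where
  duad : Set G
  sext : Set G
  low : Set G
  high : Set G
  cover : ∀ x : G, (x ∈ C.A0 ∧ x ≠ 1) ↔ (x ∈ duad ∨ x ∈ sext ∨ x ∈ low ∨ x ∈ high)
  disj_duad_sext : Disjoint duad sext
  disj_duad_low : Disjoint duad low
  disj_duad_high : Disjoint duad high
  disj_sext_low : Disjoint sext low
  disj_sext_high : Disjoint sext high
  disj_low_high : Disjoint low high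
  card_duad : duad.ncard = 28
  card_sext : sext.ncard = 35
  card_low : low.ncard = 120
  card_high : high.ncard = 840
  duad_iff : ∀ x ∈ C.A0,
    (x ∈ duad ↔ x ∈ C.V ∧ ∃ p q : GolayPt, p ≠ q ∧ x = C.M.F {p, q})
  sext_iff : ∀ x ∈ C.A0, (x ∈ sext ↔ x ∈ C.V ∧ x ≠ 1 ∧ x ∉ duad)
  conj : ∀ O ∈ [duad, sext, low, high], ∀ x ∈ O, ∀ y ∈ O,
    ∃ m ∈ Subgroup.normalizer (C.A0 : Set G) ⊓ Subgroup.normalizer (C.V : Set G),
      m * x * m⁻¹ = y
  ι : ℕ → G
  ι_mem : ∀ u < 1024, ι u ∈ C.A0
  ι_inj : ∀ a < 1024, ∀ b < 1024, ι a = ι b → a = b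
  ι_surj : ∀ x ∈ C.A0, ∃ u < 1024, ι u = x
  ι_xor : ∀ a b : ℕ, ι (a ^^^ b) = ι a * ι b
  cone : ∀ u < 1024,
    ((u ≠ 0 ∧ ∃ a < 32, ∃ b < 32, wedge5 a b = u) ↔ (ι u ∈ sext ∨ ι u ∈ low))

/-- the linear extension of a list of values -/
def linU : List ℕ → ℕ → ℕ
  | [], _ => 0
  | b :: l, u => (bif u % 2 == 1 then b else 0) ^^^ linU l (u / 2)

theorem linU_xor : ∀ (l : List ℕ) (a b : ℕ), linU l (a ^^^ b) = linU l a ^^^ linU l b
  | [], _, _ => by simp [linU]
  | c :: l, a, b => by
    simp only [linU]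
    rw [show (a ^^^ b) / 2 = a / 2 ^^^ b / 2 from Nat.xor_div_two, linU_xor l,
      show (a ^^^ b) % 2 = a % 2 ^^^ b % 2 from Nat.xor_mod_two_pow (n := 1)]
    rcases Nat.mod_two_eq_zero_or_one a with ha | ha <;>
      rcases Nat.mod_two_eq_zero_or_one b with hb | hb <;>
      simp [ha, hb, Nat.xor_assoc, Nat.xor_comm, Nat.xor_left_comm]

/-- the syndrome of a coordinate vector -/
def yU (u : ℕ) : ℕ := linU basY u

/-- the code of the permutation part of a coordinate vector -/
def eU (u : ℕ) : ℕ := eTab.getD (linU basJ u) 0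

/-- the code of the conjugate of an element of the exceptional subgroup by a generator -/
def conjE (g : ℕ × ℕ × ℕ) (P : ℕ) : ℕ := cmpC (cmpC g.2.1 P) g.2.2

/-- conjugation of a pair by a generator -/
def conjP (g : ℕ × ℕ × ℕ) (x : ℕ × ℕ) : ℕ × ℕ :=
  (g.1 ^^^ act g.2.1 x.1 ^^^ act (conjE g x.2) g.1, conjE g x.2)

/-- equality of pairs -/
def pairEq (a b : ℕ × ℕ) : Bool := Nat.beq a.1 b.1 && Nat.beq a.2 b.2

/-- grow the mask of the members treated so far -/
def treeStep : ℕ → List (ℕ × ℕ × ℕ) → Option ℕ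
  | mask, [] => some mask
  | mask, (u, p, i) :: l =>
    bif mask.testBit p && decide (i < orbGens.length) && decide (u < 1024) && decide (p < 1024) &&
        pairEq (conjP (orbGens.getD i (0, 0, 0)) (yU p, eU p)) (yU u, eU u) then
      treeStep (mask ||| 2 ^ u) l
    else none

/-- the syndromes of the pairs of points -/
def duadYs : List ℕ :=
  (List.range 24).flatMap fun j => (List.range j).map fun i => psi (2 ^ i ||| 2 ^ j)

/-- the cone as a mask, by enumeration -/
def wedgeMask : ℕ :=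
  (List.range 32).foldr (fun a r => (List.range 32).foldr (fun b s => 2 ^ wedge5 a b ||| s) r) 0

theorem coord_checks :
    ((List.range 1024).all fun u => wList.contains (yU u) && eCodes.contains (eU u) &&
      (u == 0 || !(yU u == 0 && eU u == idC))) = true ∧
    ((List.range 16).all fun a => (List.range 16).all fun b =>
      eTab.getD (a ^^^ b) 0 == cmpC (eTab.getD a 0) (eTab.getD b 0)) = true ∧
    (basJ.all fun j => decide (j < 16)) = true ∧ yU 0 = 0 ∧ eU 0 = idC ∧ idC ∈ eCodes := by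
  decide +kernel

theorem gens_checks : (orbGens.all fun g => vecOK g.1 &&
    (List.range 10).all fun n => wList.contains (conjP g (yU (2 ^ n), eU (2 ^ n))).1 &&
      eCodes.contains (conjP g (yU (2 ^ n), eU (2 ^ n))).2) = true := by
  decide +kernel

theorem gens_rep : ∀ p ∈ orbGens.map Prod.snd, ∃ g ∈ Cfsg.M24, code g = p.1 ∧ code g⁻¹ = p.2 :=
  Mathieu.Code.rep_of_check Mathieu.Code.inM24 (fun _ h => Mathieu.Code.inM24_mem h) _
    (by decide +kernel)

theorem tree_duad : treeStep (2 ^ duadRoot) duadTree = some duadMask := by decide +kernel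
theorem tree_sext : treeStep (2 ^ sextRoot) sextTree = some sextMask := by decide +kernel
theorem tree_low : treeStep (2 ^ lowRoot) lowTree = some lowMask := by decide +kernel
theorem tree_high : treeStep (2 ^ highRoot) highTree = some highMask := by decide +kernel

theorem mask_checks :
    duadRoot < 1024 ∧ sextRoot < 1024 ∧ lowRoot < 1024 ∧ highRoot < 1024 ∧
    duadMask &&& sextMask = 0 ∧ duadMask &&& lowMask = 0 ∧ duadMask &&& highMask = 0 ∧
    sextMask &&& lowMask = 0 ∧ sextMask &&& highMask = 0 ∧ lowMask &&& highMask = 0 ∧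
    duadMask ||| sextMask ||| lowMask ||| highMask = 2 ^ 1024 - 2 ∧
    ((List.range 1024).filter fun u => duadMask.testBit u).length = 28 ∧
    ((List.range 1024).filter fun u => sextMask.testBit u).length = 35 ∧
    ((List.range 1024).filter fun u => lowMask.testBit u).length = 120 ∧
    ((List.range 1024).filter fun u => highMask.testBit u).length = 840 ∧
    sextMask ||| lowMask ||| 1 = wedgeMask ∧ (sextMask ||| lowMask).testBit 0 = false ∧
    ((List.range 1024).all fun u =>
      duadMask.testBit u == (eU u == idC && duadYs.contains (yU u))) = true ∧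
    ((List.range 1024).all fun u =>
      sextMask.testBit u == (eU u == idC && !(u == 0) && !(duadMask.testBit u))) = true ∧
    (duadYs.all vecOK) = true := by
  decide +kernel

theorem testBit_wedgeMask (u : ℕ) :
    wedgeMask.testBit u = true ↔ ∃ a < 32, ∃ b < 32, wedge5 a b = u := by
  have inner : ∀ (a : ℕ) (L : List ℕ) (r : ℕ),
      (L.foldr (fun b s => 2 ^ wedge5 a b ||| s) r).testBit u = true ↔
        r.testBit u = true ∨ ∃ b ∈ L, wedge5 a b = u := by
    intro a L r
    induction L with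
    | nil => simp
    | cons b L ih =>
      simp only [List.foldr_cons, Nat.testBit_lor, Bool.or_eq_true, ih, Nat.testBit_two_pow,
        decide_eq_true_eq, List.exists_mem_cons_iff]
      tauto
  have outer : ∀ L : List ℕ,
      (L.foldr (fun a r => (List.range 32).foldr (fun b s => 2 ^ wedge5 a b ||| s) r) 0).testBit u
        = true ↔ ∃ a ∈ L, ∃ b < 32, wedge5 a b = u := by
    intro L
    induction L with
    | nil => simp
    | cons a L ih =>
      rw [List.foldr_cons, inner, ih]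
      simp only [List.exists_mem_cons_iff, List.mem_range]
      exact or_comm
  simpa [wedgeMask] using outer (List.range 32)

theorem linU_lt : ∀ (l : List ℕ) (n : ℕ), (∀ j ∈ l, j < 2 ^ n) → ∀ u, linU l u < 2 ^ n
  | [], _, _, _ => Nat.two_pow_pos _
  | b :: l, n, h, u => by
    refine Nat.xor_lt_two_pow ?_ (linU_lt l n (fun j hj => h j (List.mem_cons_of_mem _ hj)) _)
    cases u % 2 == 1
    · exact Nat.two_pow_pos _
    · exact h b List.mem_cons_self

theorem eU_xor (a b : ℕ) : eU (a ^^^ b) = cmpC (eU a) (eU b) := by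
  obtain ⟨-, h, hj, -⟩ := coord_checks
  have hlt : ∀ u, linU basJ u < 16 := linU_lt basJ 4 fun j hj' => by
    simpa using List.all_eq_true.1 hj j hj'
  rw [eU, linU_xor]
  exact beq_iff_eq.1 (List.all_eq_true.1
    (List.all_eq_true.1 h _ (List.mem_range.2 (hlt a))) _ (List.mem_range.2 (hlt b)))

theorem yU_xor (a b : ℕ) : yU (a ^^^ b) = yU a ^^^ yU b := linU_xor _ _ _

theorem linU_mod : ∀ (l : List ℕ) (u : ℕ), linU l u = linU l (u % 2 ^ l.length)
  | [], _ => rfl
  | b :: l, u => by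
    simp only [linU, List.length_cons, pow_succ', Nat.mod_mul_right_div_self,
      Nat.mod_mul_right_mod]
    rw [linU_mod l]

theorem coord_ok (u : ℕ) : yU u ∈ wList ∧ eU u ∈ eCodes := by
  have e1 : yU u = yU (u % 1024) := linU_mod basY u
  have e2 : eU u = eU (u % 1024) := by rw [eU, eU, linU_mod basJ u]; rfl
  have h := List.all_eq_true.1 coord_checks.1 (u % 1024) (List.mem_range.2 (Nat.mod_lt _ (by norm_num)))
  simp only [Bool.and_eq_true, List.contains_iff_mem] at h
  rw [e1, e2]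
  exact h.1

/-- the permutation with a given code in the exceptional subgroup -/
noncomputable def eMem (P : ℕ) : ↥Cfsg.M24 :=
  Classical.epsilon fun s => s ∈ eSub ∧ code (s : Equiv.Perm GolayPt) = P

theorem eMem_spec {P : ℕ} (h : P ∈ eCodes) :
    eMem P ∈ eSub ∧ code (eMem P : Equiv.Perm GolayPt) = P := by
  obtain ⟨g, hg⟩ := (Mathieu.Code.spanSpec _ eList_ok).exists_code P h
  have hm : g ∈ Mathieu.Code.grpOf eList.reverse :=
    ((Mathieu.Code.spanSpec _ eList_ok).mem_iff g).2 (hg ▸ h)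
  have hx : ∃ s ∈ eSub, code (s : Equiv.Perm GolayPt) = P :=
    ⟨⟨g, grpOf_eList_le hm⟩, Subgroup.mem_subgroupOf.2 hm, hg⟩
  exact Classical.epsilon_spec hx

theorem eMem_eq {P : ℕ} {s : ↥Cfsg.M24} (hs : code (s : Equiv.Perm GolayPt) = P)
    (hP : P ∈ eCodes) : eMem P = s :=
  Subtype.ext (Mathieu.Code.code_injective ((eMem_spec hP).2.trans hs.symm))

namespace Cfg

variable {G : Type*} [Group G] (C : Cfg G)

/-- the member with given coordinates -/
noncomputable def iota (u : ℕ) : G := vec C.M (yU u) * C.lift (eMem (eU u))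

variable [Finite G]

theorem iota_mem (u : ℕ) : C.iota u ∈ C.A0 :=
  C.mem_A0.2 ⟨_, (coord_ok u).1, _, (eMem_spec (coord_ok u).2).1, rfl⟩

theorem iota_xor (a b : ℕ) : C.iota (a ^^^ b) = C.iota a * C.iota b := by
  have ha := eMem_spec (coord_ok a).2
  have hb := eMem_spec (coord_ok b).2
  rw [iota, iota, iota, C.mul_rule _ (wList_vec (coord_ok b).1), wList_fix (coord_ok b).1 ha.1,
    yU_xor, eMem_eq (s := eMem (eU a) * eMem (eU b)) ?_ (coord_ok _).2]
  rw [Subgroup.coe_mul, Mathieu.Code.code_mul, ha.2, hb.2, eU_xor]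

theorem eMem_id : eMem idC = 1 :=
  eMem_eq (by rw [OneMemClass.coe_one, Mathieu.Code.code_one]) coord_checks.2.2.2.2.2

theorem iota_zero : C.iota 0 = 1 := by
  rw [iota, coord_checks.2.2.2.1, coord_checks.2.2.2.2.1, eMem_id, vec_zero, C.lift_one, mul_one]

theorem iota_inj {a b : ℕ} (ha : a < 1024) (hb : b < 1024) (h : C.iota a = C.iota b) : a = b := by
  have h1 : C.iota (a ^^^ b) = 1 := by
    rw [C.iota_xor, h, ← C.iota_xor, Nat.xor_self, C.iota_zero]
  have hlt : a ^^^ b < 1024 := Nat.xor_lt_two_pow (n := 10) ha hb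
  have hd := C.decomp_inj (wList_vec (coord_ok (a ^^^ b)).1) (wList_vec zero_wList) (s := 1)
    (h1.trans (by rw [vec_zero, C.lift_one, mul_one]))
  have hk := List.all_eq_true.1 coord_checks.1 _ (List.mem_range.2 hlt)
  have he : eU (a ^^^ b) = idC := by
    have := (eMem_spec (coord_ok (a ^^^ b)).2).2
    rw [hd.2, OneMemClass.coe_one, Mathieu.Code.code_one] at this
    exact this.symm
  simp only [Bool.and_eq_true, Bool.or_eq_true, beq_iff_eq, Bool.not_eq_true', hd.1, he,
    Bool.true_and, Bool.false_eq_true, or_false] at hk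
  exact Nat.xor_eq_zero_iff.1 (by simpa using hk.2)

theorem iota_surj {x : G} (hx : x ∈ C.A0) : ∃ u < 1024, C.iota u = x := by
  let f : Fin 1024 → ↥C.A0 := fun u => ⟨C.iota u, C.iota_mem u⟩
  have hf : Function.Injective f := fun a b e =>
    Fin.ext (C.iota_inj a.2 b.2 (congrArg Subtype.val e))
  obtain ⟨u, hu⟩ := ((Nat.bijective_iff_injective_and_card f).2
    ⟨hf, by rw [C.card_A0]; simp⟩).2 ⟨x, hx⟩
  exact ⟨u, u.2, congrArg Subtype.val hu⟩

theorem iota_mem_V {u : ℕ} : C.iota u ∈ C.V ↔ eU u = idC := by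
  constructor
  · intro h
    have h1 : C.lift (eMem (eU u)) ∈ C.V := by
      have := mul_mem (inv_mem (vec_mem C.M (yU u))) h
      rwa [iota, inv_mul_cancel_left] at this
    have := (eMem_spec (coord_ok u).2).2
    rw [C.lift_notMem h1, OneMemClass.coe_one, Mathieu.Code.code_one] at this
    exact this.symm
  · intro h
    rw [iota, h, eMem_id, C.lift_one, mul_one]
    exact vec_mem C.M _

theorem conj_iota {g : ℕ × ℕ × ℕ} (hv : vecOK g.1 = true) {s : ↥Cfsg.M24}
    (h1 : code (s : Equiv.Perm GolayPt) = g.2.1) (h2 : code (s : Equiv.Perm GolayPt)⁻¹ = g.2.2)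
    (u : ℕ) :
    vec C.M g.1 * C.lift s * C.iota u * (vec C.M g.1 * C.lift s)⁻¹ =
      vec C.M (conjP g (yU u, eU u)).1 * C.lift (s * eMem (eU u) * s⁻¹) ∧
    code ((s * eMem (eU u) * s⁻¹ : ↥Cfsg.M24) : Equiv.Perm GolayPt) =
      (conjP g (yU u, eU u)).2 := by
  have hy := wList_vec (coord_ok u).1
  have hc : code ((s * eMem (eU u) * s⁻¹ : ↥Cfsg.M24) : Equiv.Perm GolayPt) =
      conjE g (eU u) := by
    simp only [Subgroup.coe_mul, InvMemClass.coe_inv, Mathieu.Code.code_mul, h1, h2,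
      (eMem_spec (coord_ok u).2).2, conjE]
  refine ⟨?_, hc⟩
  have h3 := C.conj_lift s hy
  rw [h1] at h3
  have h4 := C.conj_lift (s * eMem (eU u) * s⁻¹) hv
  rw [hc] at h4
  have h5 : (vec C.M g.1)⁻¹ = vec C.M g.1 :=
    inv_eq_of_mul_eq_one_right (C.M.sq _ (vec_mem C.M _))
  calc vec C.M g.1 * C.lift s * C.iota u * (vec C.M g.1 * C.lift s)⁻¹
      = vec C.M g.1 * (C.lift s * vec C.M (yU u) * (C.lift s)⁻¹) *
          (C.lift (s * eMem (eU u) * s⁻¹) * (vec C.M g.1)⁻¹ *
            (C.lift (s * eMem (eU u) * s⁻¹))⁻¹) * C.lift (s * eMem (eU u) * s⁻¹) := by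
        simp only [iota, C.lift_mul, C.lift_inv]
        group
    _ = _ := by rw [h3, h5, h4, conjP, vec_mul, vec_mul]

/-- the normaliser of both `A0` and `V` -/
abbrev joint : Subgroup G :=
  Subgroup.normalizer (C.A0 : Set G) ⊓ Subgroup.normalizer (C.V : Set G)

theorem exists_gen {i : ℕ} (hi : i < orbGens.length) :
    ∃ s : ↥Cfsg.M24, code (s : Equiv.Perm GolayPt) = (orbGens.getD i (0, 0, 0)).2.1 ∧
      code (s : Equiv.Perm GolayPt)⁻¹ = (orbGens.getD i (0, 0, 0)).2.2 ∧
      vecOK (orbGens.getD i (0, 0, 0)).1 = true ∧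
      vec C.M (orbGens.getD i (0, 0, 0)).1 * C.lift s ∈ C.joint := by
  rw [List.getD_eq_getElem _ _ hi]
  set g := orbGens[i] with hg
  have hmem : g ∈ orbGens := List.getElem_mem hi
  obtain ⟨p, hp, h1, h2⟩ := gens_rep g.2 (List.mem_map_of_mem hmem)
  have hk := List.all_eq_true.1 gens_checks g hmem
  simp only [Bool.and_eq_true, List.all_eq_true, List.mem_range, List.contains_iff_mem] at hk
  obtain ⟨hv, hb⟩ := hk
  refine ⟨⟨p, hp⟩, h1, h2, hv, ?_⟩
  have hVN : vec C.M g.1 * C.lift ⟨p, hp⟩ ∈ Subgroup.normalizer (C.V : Set G) :=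
    mul_mem (Subgroup.le_normalizer (vec_mem C.M _)) (C.lift_mem _)
  refine ⟨?_, hVN⟩
  set m := vec C.M g.1 * C.lift ⟨p, hp⟩ with hm
  have basis : ∀ n < 10, m * C.iota (2 ^ n) * m⁻¹ ∈ C.A0 := by
    intro n hn
    obtain ⟨e, hc⟩ := C.conj_iota hv (s := ⟨p, hp⟩) h1 h2 (2 ^ n)
    rw [hm, e]
    exact C.mem_A0.2 ⟨_, (hb n hn).1, _, mem_eSub.2 (hc.symm ▸ (hb n hn).2), rfl⟩
  have all : ∀ n ≤ 10, ∀ u < 2 ^ n, m * C.iota u * m⁻¹ ∈ C.A0 := by
    intro n
    induction n with
    | zero =>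
      intro _ u hu
      obtain rfl : u = 0 := by simpa using hu
      rw [C.iota_zero, mul_one, mul_inv_cancel]
      exact one_mem _
    | succ n ih =>
      intro hn u hu
      by_cases hlt : u < 2 ^ n
      · exact ih (by omega) u hlt
      have he : u = (u - 2 ^ n) ^^^ 2 ^ n := by
        have h' : u - 2 ^ n < 2 ^ n := by rw [pow_succ'] at hu; omega
        have := Nat.two_pow_add_eq_or_of_lt h' 1
        rw [mul_one] at this
        apply Nat.eq_of_testBit_eq
        intro j
        rw [Nat.testBit_xor, Nat.testBit_two_pow]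
        conv_lhs => rw [show u = 2 ^ n + (u - 2 ^ n) by omega, this, Nat.testBit_lor,
          Nat.testBit_two_pow]
        by_cases hj : n = j
        · subst hj
          simp [Nat.testBit_lt_two_pow h']
        · simp [hj]
      have h' : u - 2 ^ n < 2 ^ n := by rw [pow_succ'] at hu; omega
      rw [he, C.iota_xor, show m * (C.iota (u - 2 ^ n) * C.iota (2 ^ n)) * m⁻¹ =
        (m * C.iota (u - 2 ^ n) * m⁻¹) * (m * C.iota (2 ^ n) * m⁻¹) by group]
      exact mul_mem (ih (by omega) _ h') (basis n (by omega))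
  have hmap : C.A0.map (MulAut.conj m).toMonoidHom ≤ C.A0 := by
    rintro _ ⟨x, hx, rfl⟩
    obtain ⟨u, hu, rfl⟩ := C.iota_surj hx
    exact all 10 le_rfl u (by simpa using hu)
  have heq := Subgroup.eq_of_le_of_card_ge hmap
    (by rw [Subgroup.card_map_of_injective (MulAut.conj m).injective])
  refine Subgroup.mem_normalizer_iff.mpr fun x => ⟨fun hx => ?_, fun hx => ?_⟩
  · rw [← heq]
    exact ⟨x, hx, rfl⟩
  · rw [← heq] at hx
    obtain ⟨y, hy, e⟩ := hx
    have e' : m * y * m⁻¹ = m * x * m⁻¹ := e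
    rwa [← mul_left_cancel (mul_right_cancel e')]

theorem tree_sound {r : ℕ} : ∀ {l : List (ℕ × ℕ × ℕ)} {mask M : ℕ},
    (∀ u, mask.testBit u = true → u < 1024 ∧ ∃ m ∈ C.joint, m * C.iota r * m⁻¹ = C.iota u) →
    treeStep mask l = some M →
    ∀ u, M.testBit u = true → u < 1024 ∧ ∃ m ∈ C.joint, m * C.iota r * m⁻¹ = C.iota u
  | [], mask, M, hm, h => by
    simp only [treeStep, Option.some.injEq] at h
    subst h; exact hm
  | (v, p, i) :: l, mask, M, hm, h => by
    simp only [treeStep, Bool.cond_eq_ite, Option.ite_none_right_eq_some, Bool.and_eq_true,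
      decide_eq_true_eq, pairEq, Nat.beq_eq] at h
    obtain ⟨⟨⟨⟨⟨hp, hi⟩, hv⟩, -⟩, he1, he2⟩, h⟩ := h
    refine tree_sound (fun u hu => ?_) h
    rw [Nat.testBit_lor, Bool.or_eq_true, Nat.testBit_two_pow, decide_eq_true_eq] at hu
    rcases hu with hu | rfl
    · exact hm u hu
    obtain ⟨-, m, hmj, hme⟩ := hm p hp
    obtain ⟨s, h1, h2, hvec, hmem⟩ := C.exists_gen hi
    refine ⟨hv, _, mul_mem hmem hmj, ?_⟩
    obtain ⟨e, hc⟩ := C.conj_iota hvec h1 h2 p
    rw [he1] at e
    rw [he2] at hc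
    rw [mul_inv_rev, show ∀ a b x : G, a * b * x * (b⁻¹ * a⁻¹) = a * (b * x * b⁻¹) * a⁻¹ by
      intros; group, hme, e]
    rw [← eMem_eq hc (coord_ok v).2]
    rfl

theorem orbit_conj {r M : ℕ} {l : List (ℕ × ℕ × ℕ)} (hr : r < 1024)
    (h : treeStep (2 ^ r) l = some M) {a b : ℕ} (ha : M.testBit a = true) (hb : M.testBit b = true) :
    ∃ m ∈ C.joint, m * C.iota a * m⁻¹ = C.iota b := by
  have key := C.tree_sound (r := r) (fun u hu => by
    rw [Nat.testBit_two_pow, decide_eq_true_eq] at hu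
    subst hu
    exact ⟨hr, 1, one_mem _, by simp⟩) h
  obtain ⟨-, m, hm, e⟩ := key a ha
  obtain ⟨-, n, hn, e'⟩ := key b hb
  refine ⟨n * m⁻¹, mul_mem hn (inv_mem hm), ?_⟩
  rw [← e', ← e]
  group

/-- the members with coordinates in a mask -/
def orb (M : ℕ) : Set G := C.iota '' {u | u < 1024 ∧ M.testBit u = true}

theorem mem_orb {M u : ℕ} (hu : u < 1024) : C.iota u ∈ C.orb M ↔ M.testBit u = true :=
  ⟨fun ⟨v, ⟨hv, hb⟩, e⟩ => C.iota_inj hv hu e ▸ hb, fun h => ⟨u, ⟨hu, h⟩, rfl⟩⟩

theorem orb_disjoint {M N : ℕ} (h : M &&& N = 0) : Disjoint (C.orb M) (C.orb N) := by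
  rw [Set.disjoint_left]
  rintro _ ⟨u, ⟨hu, hM⟩, rfl⟩ hN
  rw [C.mem_orb hu] at hN
  have := congrArg (fun z => Nat.testBit z u) h
  simp [hM, hN] at this

theorem ncard_orb (M : ℕ) :
    (C.orb M).ncard = ((List.range 1024).filter fun u => M.testBit u).length := by
  rw [orb, Set.ncard_image_of_injOn fun a ha b hb e => C.iota_inj ha.1 hb.1 e,
    show {u | u < 1024 ∧ M.testBit u = true} =
      ↑((List.range 1024).filter fun u => M.testBit u).toFinset by ext; simp,
    Set.ncard_coe_finset, List.toFinset_card_of_nodup (List.nodup_range.filter _)]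

theorem F_pair (p q : GolayPt) :
    C.M.F {p, q} = vec C.M (psi (2 ^ Mathieu.p2i p ||| 2 ^ Mathieu.p2i q)) := by
  rw [← F_mask]
  congr 1
  ext x
  rw [Golay.mem_ofMask, ← Mathieu.p2i_eq_idx, Nat.testBit_lor, Nat.testBit_two_pow,
    Nat.testBit_two_pow, Finset.mem_insert, Finset.mem_singleton]
  simp only [Bool.or_eq_true, decide_eq_true_eq, Mathieu.p2i_injective.eq_iff]
  tauto

theorem mem_duadYs {y : ℕ} :
    y ∈ duadYs ↔ ∃ p q : GolayPt, p ≠ q ∧
      psi (2 ^ Mathieu.p2i p ||| 2 ^ Mathieu.p2i q) = y := by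
  simp only [duadYs, List.mem_flatMap, List.mem_map, List.mem_range]
  constructor
  · rintro ⟨j, hj, i, hi, rfl⟩
    refine ⟨Mathieu.i2p i, Mathieu.i2p j, fun e => ?_, ?_⟩
    · exact absurd (Mathieu.i2p_inj (by omega) hj e) (by omega)
    · rw [Mathieu.p2i_i2p i (by omega), Mathieu.p2i_i2p j hj]
  · rintro ⟨p, q, hne, rfl⟩
    rcases Nat.lt_or_ge (Mathieu.p2i p) (Mathieu.p2i q) with h | h
    · exact ⟨_, Mathieu.p2i_lt q, _, h, rfl⟩
    · refine ⟨_, Mathieu.p2i_lt p, _, lt_of_le_of_ne h ?_, by rw [Nat.lor_comm]⟩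
      exact fun e => hne (Mathieu.p2i_injective e).symm

theorem duad_mask_iff {u : ℕ} (hu : u < 1024) :
    duadMask.testBit u = true ↔
      C.iota u ∈ C.V ∧ ∃ p q : GolayPt, p ≠ q ∧ C.iota u = C.M.F {p, q} := by
  obtain ⟨-, -, -, -, -, -, -, -, -, -, -, -, -, -, -, -, -, hd, -, hok⟩ := mask_checks
  have h := List.all_eq_true.1 hd u (List.mem_range.2 hu)
  rw [beq_iff_eq] at h
  rw [h, Bool.and_eq_true, beq_iff_eq, List.contains_iff_mem, C.iota_mem_V]
  refine and_congr_right fun he => ?_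
  have hiota : C.iota u = vec C.M (yU u) := by
    rw [iota, he, eMem_id, C.lift_one, mul_one]
  rw [mem_duadYs, hiota]
  constructor
  · rintro ⟨p, q, hne, e⟩
    exact ⟨p, q, hne, by rw [C.F_pair, e]⟩
  · rintro ⟨p, q, hne, e⟩
    rw [C.F_pair] at e
    exact ⟨p, q, hne, (vec_inj C.M (wList_vec (coord_ok u).1)
      (List.all_eq_true.1 hok _ (mem_duadYs.2 ⟨p, q, hne, rfl⟩)) e).symm⟩

theorem sext_mask_iff {u : ℕ} (hu : u < 1024) :
    sextMask.testBit u = true ↔
      C.iota u ∈ C.V ∧ C.iota u ≠ 1 ∧ duadMask.testBit u = false := by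
  obtain ⟨-, -, -, -, -, -, -, -, -, -, -, -, -, -, -, -, -, -, hs, -⟩ := mask_checks
  have h := List.all_eq_true.1 hs u (List.mem_range.2 hu)
  rw [beq_iff_eq] at h
  rw [h, Bool.and_eq_true, Bool.and_eq_true, beq_iff_eq, C.iota_mem_V, Bool.not_eq_true',
    Bool.not_eq_true', beq_eq_false_iff_ne, and_assoc]
  refine and_congr_right fun _ => and_congr_left fun _ => not_congr ⟨fun e => ?_, fun e => ?_⟩
  · rw [e, C.iota_zero]
  · exact C.iota_inj hu (by norm_num) (e.trans C.iota_zero.symm)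

theorem nonempty_orbits : Nonempty C.Orbits := by
  obtain ⟨r1, r2, r3, r4, d12, d13, d14, d23, d24, d34, hall, n1, n2, n3, n4, hw, hw0, -⟩ :=
    mask_checks
  refine ⟨{
    duad := C.orb duadMask
    sext := C.orb sextMask
    low := C.orb lowMask
    high := C.orb highMask
    cover := ?_
    disj_duad_sext := C.orb_disjoint d12
    disj_duad_low := C.orb_disjoint d13
    disj_duad_high := C.orb_disjoint d14
    disj_sext_low := C.orb_disjoint d23
    disj_sext_high := C.orb_disjoint d24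
    disj_low_high := C.orb_disjoint d34
    card_duad := (C.ncard_orb _).trans n1
    card_sext := (C.ncard_orb _).trans n2
    card_low := (C.ncard_orb _).trans n3
    card_high := (C.ncard_orb _).trans n4
    duad_iff := ?_
    sext_iff := ?_
    conj := ?_
    ι := C.iota
    ι_mem := fun u _ => C.iota_mem u
    ι_inj := fun a ha b hb e => C.iota_inj ha hb e
    ι_surj := fun x hx => C.iota_surj hx
    ι_xor := C.iota_xor
    cone := ?_ }⟩
  · intro x
    constructor
    · rintro ⟨hx, hne⟩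
      obtain ⟨u, hu, rfl⟩ := C.iota_surj hx
      have hb : (2 ^ 1024 - 2).testBit u = true := by
        have hu0 : u ≠ 0 := fun e => hne (e ▸ C.iota_zero)
        rw [show (2 : ℕ) ^ 1024 - 2 = 2 * (2 ^ 1023 - 1) by
          rw [show (1024 : ℕ) = 1023 + 1 from rfl, pow_succ']; omega]
        obtain ⟨v, rfl⟩ : ∃ v, u = v + 1 := ⟨u - 1, by omega⟩
        rw [Nat.testBit_add_one, Nat.mul_div_cancel_left _ (by norm_num),
          Nat.testBit_two_pow_sub_one, decide_eq_true_eq]
        omega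
      rw [← hall] at hb
      simp only [Nat.testBit_lor, Bool.or_eq_true] at hb
      simp only [C.mem_orb hu]
      tauto
    · intro h
      have h' : ∃ M, M.testBit 0 = false ∧ x ∈ C.orb M := by
        have hz := congrArg (fun z => Nat.testBit z 0) hall
        have he : (2 ^ 1024 - 2).testBit 0 = false := by decide +kernel
        simp only [he, Nat.testBit_lor, Bool.or_eq_false_iff] at hz
        rcases h with h | h | h | h
        exacts [⟨_, hz.1.1.1, h⟩, ⟨_, hz.1.1.2, h⟩, ⟨_, hz.1.2, h⟩, ⟨_, hz.2, h⟩]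
      obtain ⟨M, h0, u, ⟨hu, hb⟩, rfl⟩ := h'
      refine ⟨C.iota_mem u, fun e => ?_⟩
      rw [C.iota_inj hu (by norm_num) (e.trans C.iota_zero.symm), h0] at hb
      exact Bool.false_ne_true hb
  · intro x hx
    obtain ⟨u, hu, rfl⟩ := C.iota_surj hx
    rw [C.mem_orb hu, C.duad_mask_iff hu]
  · intro x hx
    obtain ⟨u, hu, rfl⟩ := C.iota_surj hx
    rw [C.mem_orb hu, C.sext_mask_iff hu, C.mem_orb hu, Bool.not_eq_true]
  · simp only [List.forall_mem_cons]
    refine ⟨?_, ?_, ?_, ?_, fun _ h => absurd h List.not_mem_nil⟩ <;> rintro _ ⟨a, ⟨-, ha⟩, rfl⟩ _ ⟨b, ⟨-, hb⟩, rfl⟩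
    exacts [C.orbit_conj r1 tree_duad ha hb, C.orbit_conj r2 tree_sext ha hb,
      C.orbit_conj r3 tree_low ha hb, C.orbit_conj r4 tree_high ha hb]
  · intro u hu
    rw [C.mem_orb hu, C.mem_orb hu, ← testBit_wedgeMask, ← hw, ← Bool.or_eq_true,
      ← Nat.testBit_lor, Nat.testBit_lor _ 1, Bool.or_eq_true]
    constructor
    · rintro ⟨hne, h | h⟩
      · exact h
      · rw [Nat.testBit_one_eq_true_iff_self_eq_zero] at h
        exact absurd h hne
    · intro h
      refine ⟨fun e => ?_, Or.inl h⟩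
      rw [e, hw0] at h
      exact Bool.false_ne_true h

end Cfg

end CfsgLib.J4Ten31
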