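import Cfsg.Agent.J4Ten31.Classify
import Cfsg.Agent.J4Ten31.Orbits
import Cfsg.Agent.Mathieu.OctadFix
import Cfsg.Agent.Mathieu.SixSets

/-!
The part of the normaliser of the standard subgroup inside the normaliser of `V`.
-/

set_option autoImplicit false

open scoped Pointwise symmDiff

namespace CfsgLib.J4Ten31

open Cfsg
open CfsgLib.Mathieu.Code (code cmpC idC ap grpOf spanR code_mul code_one code_injective ap_code')

/-- The fixed octad. -/
abbrev octSet : Finset GolayPt := Golay.ofMask octMask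

theorem octMask_ok : Golay.inCode octMask = true ∧ Golay.pop octMask = 8 := by decide +kernel

theorem octSet_mem : octSet ∈ octads := Mathieu.ofMask_mem_octads octMask_ok.1 octMask_ok.2

theorem oct_fix_ok : (List.range 24).all (fun i =>
    octMask.testBit i == (eList.all fun p => ap p.1 i == i)) = true := by decide +kernel

theorem pairs_ok : (List.range 24).all (fun i => (List.range 24).all fun j =>
    i == j || !(octMask.testBit i) || !(octMask.testBit j) ||
      wList.contains (psi (2 ^ i ||| 2 ^ j))) = true := by decide +kernel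

theorem three_ok : (List.range 24).all (fun i => !(octMask.testBit i) ||
    (List.range 24).any fun j => (List.range 24).any fun k =>
      i != j && i != k && j != k && octMask.testBit j && octMask.testBit k) = true := by
  decide +kernel

theorem mem_octSet_iff (p : GolayPt) :
    p ∈ octSet ↔ octMask.testBit (Mathieu.p2i p) = true :=
  Mathieu.mem_ofMask_iff

theorem fixed_iff (p : GolayPt) :
    p ∈ octSet ↔ ∀ s ∈ eSub, (s : Equiv.Perm GolayPt) p = p := by
  rw [mem_octSet_iff]
  have h := List.all_eq_true.1 oct_fix_ok (Mathieu.p2i p) (List.mem_range.2 (Mathieu.p2i_lt p))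
  rw [beq_iff_eq] at h
  rw [h, List.all_eq_true]
  constructor
  · intro hall s hs
    have hle : grpOf eList.reverse ≤ MulAction.stabilizer (Equiv.Perm GolayPt) p := by
      refine (Subgroup.closure_le _).2 fun g hg => ?_
      obtain ⟨q, hq, e⟩ := List.mem_map.1 hg
      have := hall q (List.mem_reverse.1 hq)
      rw [beq_iff_eq, e, ap_code'] at this
      exact Mathieu.p2i_injective this
    exact hle (Subgroup.mem_subgroupOf.1 hs)
  · intro hs q hq
    rw [beq_iff_eq]
    obtain ⟨g, hg, hc, -⟩ := eList_rep q (List.mem_reverse.2 hq)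
    have hgE : g ∈ grpOf eList.reverse :=
      Subgroup.subset_closure (List.mem_map.2 ⟨q, List.mem_reverse.2 hq, hc.symm⟩)
    rw [← hc, ap_code', hs ⟨g, hg⟩ (Subgroup.mem_subgroupOf.2 hgE)]

theorem eSub_eq {s : ↥Cfsg.M24} :
    s ∈ eSub ↔ ∀ p ∈ octSet, (s : Equiv.Perm GolayPt) p = p := by
  classical
  let K : Subgroup ↥Cfsg.M24 :=
    { carrier := {s | ∀ p ∈ octSet, (s : Equiv.Perm GolayPt) p = p}
      one_mem' := fun p _ => rfl
      mul_mem' := fun {a b} ha hb p hp => by
        show (a : Equiv.Perm GolayPt) ((b : Equiv.Perm GolayPt) p) = p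
        rw [hb p hp, ha p hp]
      inv_mem' := fun {a} ha p hp => by
        show (a : Equiv.Perm GolayPt)⁻¹ p = p
        rw [Equiv.Perm.inv_eq_iff_eq, ha p hp] }
  have hle : eSub ≤ K := fun s hs p hp => (fixed_iff p).1 hp s hs
  have hcard : Nat.card K ≤ Nat.card eSub := by
    rw [card_eSub, ← (Mathieu.octPointFix_spec octSet_mem).1]
    refine Nat.card_le_card_of_injective (fun k => ⟨(k.1 : Equiv.Perm GolayPt), ?_⟩) ?_
    · refine Subgroup.mem_inf.2 ⟨k.1.2, (mem_fixingSubgroup_iff _).2 fun p hp => ?_⟩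
      exact k.2 p hp
    · intro a b e
      exact Subtype.ext (Subtype.ext (congrArg Subtype.val e :))
  rw [Subgroup.eq_of_le_of_card_ge hle hcard]
  rfl

theorem smul_oct_of_normalizes {s : ↥Cfsg.M24} (h : ∀ e ∈ eSub, s * e * s⁻¹ ∈ eSub) :
    (s : Equiv.Perm GolayPt) • octSet = octSet := by
  have hinj : Function.Injective (MulAut.conj s).toMonoidHom := (MulAut.conj s).injective
  have hmap : eSub.map (MulAut.conj s).toMonoidHom = eSub :=
    Subgroup.eq_of_le_of_card_ge (by rintro _ ⟨e, he, rfl⟩; exact h e he)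
      (Subgroup.card_map_of_injective hinj).ge
  have key : ∀ p ∈ octSet, (s : Equiv.Perm GolayPt) p ∈ octSet := by
    intro p hp
    rw [fixed_iff]
    intro e he
    rw [← hmap] at he
    obtain ⟨e0, he0, rfl⟩ := he
    show (s : Equiv.Perm GolayPt) ((e0 : Equiv.Perm GolayPt)
      ((s : Equiv.Perm GolayPt)⁻¹ ((s : Equiv.Perm GolayPt) p))) = _
    simp only [Equiv.Perm.inv_def, Equiv.symm_apply_apply]
    rw [(fixed_iff p).1 hp e0 he0]
  refine Finset.eq_of_subset_of_card_le (fun x hx => ?_) (Finset.card_smul_finset _ _).ge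
  obtain ⟨p, hp, rfl⟩ := Finset.mem_smul_finset.1 hx
  exact key p hp

theorem normalizes_of_smul_oct {s : ↥Cfsg.M24} (h : (s : Equiv.Perm GolayPt) • octSet = octSet)
    {e : ↥Cfsg.M24} (he : e ∈ eSub) : s * e * s⁻¹ ∈ eSub := by
  rw [eSub_eq]
  intro p hp
  have hq : (s : Equiv.Perm GolayPt)⁻¹ p ∈ octSet := by
    rw [← h] at hp
    obtain ⟨q, hq, rfl⟩ := Finset.mem_smul_finset.1 hp
    simpa [Equiv.Perm.smul_def] using hq
  show (s : Equiv.Perm GolayPt) ((e : Equiv.Perm GolayPt) ((s : Equiv.Perm GolayPt)⁻¹ p)) = p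
  rw [eSub_eq.1 he _ hq, Equiv.Perm.inv_def, Equiv.apply_symm_apply]

/-- The vectors of `V` normalising the standard subgroup. -/
def nvList : List ℕ := (List.range 4096).filter fun v => vecOK v &&
  eList.all fun p => wList.contains (v ^^^ act p.1 v)

theorem nvList_length : nvList.length = 1024 := by decide +kernel

namespace Cfg

variable {G : Type*} [Group G] [Finite G] (C : Cfg G)

theorem lift_normalizes {s : ↥Cfsg.M24} (h : (s : Equiv.Perm GolayPt) • octSet = octSet) {x : G}
    (hx : x ∈ C.A0) : C.lift s * x * (C.lift s)⁻¹ ∈ C.A0 := by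
  obtain ⟨y, hy, e, he, rfl⟩ := hx
  have hy' := wList_vec hy
  have hw : act (code (s : Equiv.Perm GolayPt)) y ∈ wList := by
    refine mem_wList_of_fixed (vec_act _ hy') fun r hr => ?_
    have hr' : s⁻¹ * r * s ∈ eSub := by
      have hs' : ((s⁻¹ : ↥Cfsg.M24) : Equiv.Perm GolayPt) • octSet = octSet := by
        rw [Subgroup.coe_inv, inv_smul_eq_iff, h]
      simpa using normalizes_of_smul_oct hs' hr
    rw [act_act r.2,
      show (r : Equiv.Perm GolayPt) * (s : Equiv.Perm GolayPt) =
        (s : Equiv.Perm GolayPt) * ((s⁻¹ * r * s : ↥Cfsg.M24) : Equiv.Perm GolayPt) by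
          simp [mul_assoc],
      ← act_act s.2, wList_fix hy hr']
  refine ⟨_, hw, s * e * s⁻¹, normalizes_of_smul_oct h he, ?_⟩
  rw [← C.conj_lift s hy', C.lift_mul, C.lift_mul, C.lift_inv]
  group

theorem img_of_mem_A0 {y : ℕ} (e : ↥Cfsg.M24) (m : ↥(Subgroup.normalizer (C.V : Set G)))
    (h : (m : G) = vec C.M y * C.lift e) : C.M.Φ m = e := by
  have hm : m = ⟨vec C.M y, Subgroup.le_normalizer (vec_mem C.M y)⟩ * C.κ e := Subtype.ext h
  rw [hm, map_mul, C.sec, (C.M.mem_ker _).2 (vec_mem C.M y), one_mul]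

/-- The normaliser of both. -/
def J : Subgroup G :=
  Subgroup.normalizer (C.A0 : Set G) ⊓ Subgroup.normalizer (C.V : Set G)

theorem smul_oct_of_J {m : G} (hm : m ∈ C.J) :
    (C.M.Φ ⟨m, hm.2⟩ : Equiv.Perm GolayPt) • octSet = octSet := by
  refine smul_oct_of_normalizes fun e he => ?_
  have hx : C.lift e ∈ C.A0 := ⟨0, zero_wList, e, he, by rw [vec_zero, one_mul]⟩
  obtain ⟨y, -, e', he', heq⟩ := (Subgroup.mem_normalizer_iff.1 hm.1 _).1 hx
  have h := C.img_of_mem_A0 e'
    (⟨m, hm.2⟩ * C.κ e * (⟨m, hm.2⟩ : ↥(Subgroup.normalizer (C.V : Set G)))⁻¹) heq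
  rw [map_mul, map_mul, map_inv, C.sec] at h
  exact h ▸ he'

theorem mem_normalizer_of_conj {m : G} (h : ∀ x ∈ C.A0, m * x * m⁻¹ ∈ C.A0) :
    m ∈ Subgroup.normalizer (C.A0 : Set G) := by
  have hinj : Function.Injective (MulAut.conj m).toMonoidHom := (MulAut.conj m).injective
  have hmap : C.A0.map (MulAut.conj m).toMonoidHom = C.A0 :=
    Subgroup.eq_of_le_of_card_ge (by rintro _ ⟨x, hx, rfl⟩; exact h x hx)
      (Subgroup.card_map_of_injective hinj).ge
  rw [Subgroup.mem_normalizer_iff]
  refine fun y => ⟨h y, fun hy => ?_⟩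
  rw [← hmap] at hy
  obtain ⟨x, hx, e⟩ := hy
  exact hinj (e : (MulAut.conj m).toMonoidHom x = (MulAut.conj m).toMonoidHom y) ▸ hx

theorem gen_mem {p : ℕ × ℕ} (hp : p ∈ eList) :
    ∃ e : ↥Cfsg.M24, e ∈ eSub ∧ code (e : Equiv.Perm GolayPt) = p.1 := by
  obtain ⟨g, hg, hc, -⟩ := eList_rep p (List.mem_reverse.2 hp)
  exact ⟨⟨g, hg⟩, Subgroup.mem_subgroupOf.2
    (Subgroup.subset_closure (List.mem_map.2 ⟨p, List.mem_reverse.2 hp, hc.symm⟩)), hc⟩

theorem vec_conj_lift {v : ℕ} (hv : vecOK v = true) (e : ↥Cfsg.M24) :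
    vec C.M v * C.lift e * (vec C.M v)⁻¹ =
      vec C.M (v ^^^ act (code (e : Equiv.Perm GolayPt)) v) * C.lift e := by
  have h := C.conj_pair (y := 0) (show vecOK 0 = true by decide +kernel) hv e
  rwa [vec_zero, one_mul, Nat.xor_zero] at h

theorem vec_mem_J {v : ℕ} (hv : vecOK v = true) : vec C.M v ∈ C.J ↔ v ∈ nvList := by
  have hV : vec C.M v ∈ Subgroup.normalizer (C.V : Set G) :=
    Subgroup.le_normalizer (vec_mem C.M v)
  simp only [nvList, List.mem_filter, List.mem_range, Bool.and_eq_true, List.all_eq_true,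
    List.contains_eq_mem, decide_eq_true_eq]
  constructor
  · intro h
    refine ⟨(vecOK_iff.1 hv).1, hv, fun p hp => ?_⟩
    obtain ⟨e, he, hc⟩ := gen_mem hp
    obtain ⟨y, hy, r, hr, heq⟩ := (Subgroup.mem_normalizer_iff.1 h.1 (C.lift e)).1
      ⟨0, zero_wList, e, he, by rw [vec_zero, one_mul]⟩
    rw [C.vec_conj_lift hv] at heq
    rw [← hc, (C.decomp_inj (vec_xor hv (vec_act _ hv)) (wList_vec hy) heq).1]
    exact hy
  · rintro ⟨-, -, hall⟩
    refine Subgroup.mem_inf.2 ⟨C.mem_normalizer_of_conj ?_, hV⟩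
    let L : Subgroup ↥Cfsg.M24 :=
      { carrier := {e | vec C.M v * C.lift e * (vec C.M v)⁻¹ ∈ C.A0}
        one_mem' := by
          show vec C.M v * C.lift 1 * (vec C.M v)⁻¹ ∈ C.A0
          rw [C.lift_one, mul_one, mul_inv_cancel]; exact one_mem _
        mul_mem' := fun {a b} ha hb => by
          show vec C.M v * C.lift (a * b) * (vec C.M v)⁻¹ ∈ C.A0
          rw [C.lift_mul, show vec C.M v * (C.lift a * C.lift b) * (vec C.M v)⁻¹ =
            vec C.M v * C.lift a * (vec C.M v)⁻¹ * (vec C.M v * C.lift b * (vec C.M v)⁻¹) by group]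
          exact mul_mem ha hb
        inv_mem' := fun {a} ha => by
          show vec C.M v * C.lift a⁻¹ * (vec C.M v)⁻¹ ∈ C.A0
          rw [C.lift_inv, show vec C.M v * (C.lift a)⁻¹ * (vec C.M v)⁻¹ =
            (vec C.M v * C.lift a * (vec C.M v)⁻¹)⁻¹ by group]
          exact inv_mem ha }
    have hgen : grpOf eList.reverse ≤ L.map Cfsg.M24.subtype := by
      refine (Subgroup.closure_le _).2 fun g hg => ?_
      obtain ⟨p, hp, e⟩ := List.mem_map.1 hg
      obtain ⟨r, hr, hc⟩ := gen_mem (List.mem_reverse.1 hp)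
      refine ⟨r, ?_, code_injective (hc.trans e)⟩
      show vec C.M v * C.lift r * (vec C.M v)⁻¹ ∈ C.A0
      rw [C.vec_conj_lift hv, hc]
      exact ⟨_, hall p (List.mem_reverse.1 hp), r, hr, rfl⟩
    rintro _ ⟨y, hy, e, he, rfl⟩
    rw [show vec C.M v * (vec C.M y * C.lift e) * (vec C.M v)⁻¹ =
      vec C.M v * vec C.M y * (vec C.M v)⁻¹ * (vec C.M v * C.lift e * (vec C.M v)⁻¹) by group,
      C.normalizer_conj_vec (vec_mem C.M v)]
    refine mul_mem (C.mem_A0_vec hy) ?_
    obtain ⟨e', he', heq⟩ := hgen (Subgroup.mem_subgroupOf.1 he)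
    exact (Subtype.ext heq : e' = e) ▸ he'

/-- The image of the joint normaliser. -/
def jHom : ↥C.J →* ↥Cfsg.M24 := C.M.Φ.comp (Subgroup.inclusion inf_le_right)

theorem card_J : Nat.card C.J = 1024 * 322560 := by
  classical
  have hker : Nat.card C.jHom.ker = 1024 := by
    let f : {v // v ∈ nvList.toFinset} → C.jHom.ker := fun v => by
      have hm := List.mem_toFinset.1 v.2
      have hv : vecOK v.1 = true := by
        simp only [nvList, List.mem_filter, Bool.and_eq_true] at hm
        exact hm.2.1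
      exact ⟨⟨vec C.M v.1, (C.vec_mem_J hv).2 hm⟩,
        MonoidHom.mem_ker.2 ((C.M.mem_ker _).2 (vec_mem C.M v.1))⟩
    have hf : Function.Bijective f := by
      constructor
      · intro a b e
        have h1 := congrArg (fun x : C.jHom.ker => ((x : C.J) : G)) e
        have hva : vecOK a.1 = true := by
          have := List.mem_toFinset.1 a.2
          simp only [nvList, List.mem_filter, Bool.and_eq_true] at this
          exact this.2.1
        have hvb : vecOK b.1 = true := by
          have := List.mem_toFinset.1 b.2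
          simp only [nvList, List.mem_filter, Bool.and_eq_true] at this
          exact this.2.1
        exact Subtype.ext (vec_inj C.M hva hvb h1)
      · intro x
        have hxV : ((x : C.J) : G) ∈ C.V := (C.M.mem_ker _).1 (MonoidHom.mem_ker.1 x.2)
        obtain ⟨v, hv, e⟩ := vec_surj C.M hxV
        refine ⟨⟨v, List.mem_toFinset.2 ((C.vec_mem_J hv).1 (e ▸ (x : C.J).2))⟩, ?_⟩
        exact Subtype.ext (Subtype.ext e)
    rw [← Nat.card_eq_of_bijective f hf, Nat.card_eq_fintype_card, Fintype.card_coe]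
    exact (List.toFinset_card_of_nodup (List.nodup_range.filter _)).trans nvList_length
  have hrange : C.jHom.range = (Mathieu.fixSet Cfsg.M24 octSet).subgroupOf Cfsg.M24 := by
    ext s
    rw [Subgroup.mem_subgroupOf, Mathieu.mem_fixSet_iff]
    constructor
    · rintro ⟨m, rfl⟩
      exact ⟨(C.jHom m).2, C.smul_oct_of_J m.2⟩
    · rintro ⟨-, h⟩
      refine ⟨⟨C.lift s, Subgroup.mem_inf.2
        ⟨C.mem_normalizer_of_conj fun x hx => C.lift_normalizes h hx, C.lift_mem s⟩⟩, ?_⟩
      exact C.sec s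
  have h := C.jHom.ker.card_mul_index
  rw [Subgroup.index_ker, hker, hrange, Nat.card_congr (Subgroup.subgroupOfEquivOfLe
    (H := Mathieu.fixSet Cfsg.M24 octSet) (fun g hg => (Mathieu.mem_fixSet_iff.1 hg).1)).toEquiv,
    Mathieu.card_fixSet_octad octSet_mem] at h
  omega

/-- The centraliser inside the normaliser of `V`. -/
theorem centralizer_inf_le {x : G} (hx : x ∈ Subgroup.centralizer (C.A0 : Set G))
    (hxV : x ∈ Subgroup.normalizer (C.V : Set G)) : x ∈ C.A0 := by
  have hc : ∀ a ∈ C.A0, x * a * x⁻¹ = a := fun a ha =>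
    mul_inv_eq_iff_eq_mul.2 (Subgroup.mem_centralizer_iff.1 hx a ha).symm
  obtain ⟨y, s, hy, rfl, hs⟩ := C.exists_decomp hxV
  have hfix : ∀ w ∈ wList, act (code (s : Equiv.Perm GolayPt)) w = w := by
    intro w hw
    have h1 := hc _ (C.mem_A0_vec hw)
    rw [mul_inv_rev, show vec C.M y * C.lift s * vec C.M w * ((C.lift s)⁻¹ * (vec C.M y)⁻¹) =
      vec C.M y * (C.lift s * vec C.M w * (C.lift s)⁻¹) * (vec C.M y)⁻¹ by group,
      C.conj_lift s (wList_vec hw), C.normalizer_conj_vec (vec_mem C.M y)] at h1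
    exact vec_inj C.M (vec_act _ (wList_vec hw)) (wList_vec hw) h1
  have hse : s ∈ eSub := by
    rw [eSub_eq]
    intro p hp
    rw [mem_octSet_iff] at hp
    have h3 := List.all_eq_true.1 three_ok _ (List.mem_range.2 (Mathieu.p2i_lt p))
    simp only [hp, Bool.not_true, Bool.false_or, List.any_eq_true, List.mem_range,
      Bool.and_eq_true, bne_iff_ne, ne_eq] at h3
    obtain ⟨j, hj, k, hk, ⟨⟨⟨hij, hik⟩, hjk⟩, hjO⟩, hkO⟩ := h3
    have hpair : ∀ l < 24, Mathieu.p2i p ≠ l → octMask.testBit l = true →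
        (s : Equiv.Perm GolayPt) • ({p, Mathieu.i2p l} : Finset GolayPt) = {p, Mathieu.i2p l} := by
      intro l hl hne hlO
      have hw := List.all_eq_true.1 (List.all_eq_true.1 pairs_ok _
        (List.mem_range.2 (Mathieu.p2i_lt p))) l (List.mem_range.2 hl)
      simp only [hp, hlO, Bool.not_true, Bool.or_false, Bool.or_eq_true, beq_iff_eq, hne, false_or,
        List.contains_eq_mem, decide_eq_true_eq] at hw
      have hset : Golay.ofMask (2 ^ Mathieu.p2i p ||| 2 ^ l) = {p, Mathieu.i2p l} := by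
        ext q
        simp only [Mathieu.mem_ofMask_iff, Nat.testBit_lor, Bool.or_eq_true, Nat.testBit_two_pow,
          decide_eq_true_eq, Finset.mem_insert, Finset.mem_singleton]
        constructor
        · rintro (e | e)
          · exact Or.inl (Mathieu.p2i_injective e.symm)
          · exact Or.inr (by rw [e, Mathieu.i2p_p2i])
        · rintro (rfl | rfl)
          · exact Or.inl rfl
          · exact Or.inr (Mathieu.p2i_i2p l hl).symm
      have hF := F_mask C.M (2 ^ Mathieu.p2i p ||| 2 ^ l)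
      rw [hset] at hF
      have hne' : p ≠ Mathieu.i2p l := fun e => hne (by rw [e, Mathieu.p2i_i2p l hl])
      have h2 : ({p, Mathieu.i2p l} : Finset GolayPt).card = 2 := Finset.card_pair hne'
      have he := C.M.equiv (C.κ s) {p, Mathieu.i2p l} ⟨1, h2⟩
      rw [C.sec, hF] at he
      have hcl := C.conj_lift s (wList_vec hw)
      rw [hfix _ hw] at hcl
      have hFs : C.M.F ((s : Equiv.Perm GolayPt) • ({p, Mathieu.i2p l} : Finset GolayPt)) =
          C.M.F {p, Mathieu.i2p l} := by
        rw [hF, ← he]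
        exact hcl
      refine symmDiff_eq_bot.1 (C.M.short _ (J4Type13.even_symmDiff ?_ ⟨1, h2⟩) ?_ ?_)
      · rw [Finset.card_smul_finset, h2]; decide
      · have := Golay.card_symmDiff_add
          ((s : Equiv.Perm GolayPt) • ({p, Mathieu.i2p l} : Finset GolayPt)) {p, Mathieu.i2p l}
        rw [Finset.card_smul_finset, h2] at this
        omega
      · rw [C.M.F_mul, hFs]
        exact C.M.sq _ (C.M.F_mem _)
    have h1 : (s : Equiv.Perm GolayPt) p ∈ ({p, Mathieu.i2p j} : Finset GolayPt) := by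
      rw [← hpair j hj hij hjO]
      exact Finset.smul_mem_smul_finset (Finset.mem_insert_self _ _)
    have h2 : (s : Equiv.Perm GolayPt) p ∈ ({p, Mathieu.i2p k} : Finset GolayPt) := by
      rw [← hpair k hk hik hkO]
      exact Finset.smul_mem_smul_finset (Finset.mem_insert_self _ _)
    simp only [Finset.mem_insert, Finset.mem_singleton] at h1 h2
    rcases h1 with h1 | h1
    · exact h1
    rcases h2 with h2 | h2
    · exact h2
    exact absurd (Mathieu.i2p_inj hj hk (h1.symm.trans h2)) hjk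
  refine ⟨y, mem_wList_of_fixed hy fun r hr => ?_, s, hse, rfl⟩
  have h1 := hc (C.lift r) ⟨0, zero_wList, r, hr, by rw [vec_zero, one_mul]⟩
  rw [mul_inv_rev, show vec C.M y * C.lift s * C.lift r * ((C.lift s)⁻¹ * (vec C.M y)⁻¹) =
    vec C.M y * (C.lift s * C.lift r * (C.lift s)⁻¹) * (vec C.M y)⁻¹ by group,
    ← C.lift_inv, ← C.lift_mul, ← C.lift_mul, (eSub_comm hse hr).1, mul_inv_cancel_right,
    C.vec_conj_lift hy] at h1
  have h2 : vec C.M (y ^^^ act (code (r : Equiv.Perm GolayPt)) y) = 1 :=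
    mul_eq_right.1 h1
  exact (Nat.xor_eq_zero_iff.1 (vec_eq_one C.M (vec_xor hy (vec_act _ hy)) h2)).symm

end Cfg

end CfsgLib.J4Ten31
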