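import Cfsg.Agent.J4Ten31.Hyp
import Cfsg.Agent.J4Ten31.Stab

/-!
The self-centralising elementary abelian subgroups of order `2 ^ 10`: conjugacy, and the two
orbits of the normaliser on the nonidentity members, of lengths 155 and 868.
-/

set_option autoImplicit false

open scoped Pointwise

namespace CfsgLib.J4Ten31

open Cfsg

section General

variable {G : Type*} [Group G] [Finite G]

theorem conj_mem_map {A : Subgroup G} (g : G) {x : G} (hx : x ∈ A) :
    g * x * g⁻¹ ∈ A.map (MulAut.conj g).toMonoidHom :=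
  ⟨x, hx, rfl⟩

theorem mem_map_conj {A : Subgroup G} (g : G) {x : G} :
    x ∈ A.map (MulAut.conj g).toMonoidHom ↔ g⁻¹ * x * g ∈ A := by
  constructor
  · rintro ⟨a, ha, rfl⟩
    show g⁻¹ * (g * a * g⁻¹) * g ∈ A
    rwa [show g⁻¹ * (g * a * g⁻¹) * g = a by group]
  · intro h
    exact ⟨_, h, show g * (g⁻¹ * x * g) * g⁻¹ = x by group⟩

omit [Finite G] in
theorem card_map_conj (A : Subgroup G) (g : G) :
    Nat.card (A.map (MulAut.conj g).toMonoidHom) = Nat.card A :=
  Subgroup.card_map_of_injective (MulAut.conj g).injective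

omit [Finite G] in
theorem elementary_map_conj {A : Subgroup G} (g : G) (h : Cfsg.IsElementaryAbelian 2 A) :
    Cfsg.IsElementaryAbelian 2 (A.map (MulAut.conj g).toMonoidHom) := by
  refine ⟨⟨⟨?_⟩⟩, ?_⟩
  · rintro ⟨_, a, ha, rfl⟩ ⟨_, b, hb, rfl⟩
    apply Subtype.ext
    show (MulAut.conj g).toMonoidHom a * (MulAut.conj g).toMonoidHom b =
      (MulAut.conj g).toMonoidHom b * (MulAut.conj g).toMonoidHom a
    rw [← map_mul, ← map_mul]
    exact congrArg _ (congrArg Subtype.val (h.1.is_comm.comm ⟨a, ha⟩ ⟨b, hb⟩))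
  · rintro _ ⟨a, ha, rfl⟩
    rw [← map_pow, h.2 a ha, map_one]

theorem self_map_conj {A : Subgroup G} (g : G) (h : Subgroup.centralizer (A : Set G) = A) :
    Subgroup.centralizer ((A.map (MulAut.conj g).toMonoidHom : Subgroup G) : Set G) =
      A.map (MulAut.conj g).toMonoidHom := by
  ext x
  rw [mem_map_conj]
  conv_rhs => rw [← h]
  simp only [Subgroup.mem_centralizer_iff, SetLike.mem_coe]
  constructor
  · intro hx a ha
    have := congrArg (fun y => g⁻¹ * y * g) (hx _ (conj_mem_map g ha))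
    simpa [mul_assoc] using this
  · intro hx y hy
    have := congrArg (fun y => g * y * g⁻¹) (hx _ ((mem_map_conj g).1 hy))
    simpa [mul_assoc] using this

theorem mem_normalizer_of_le {H : Subgroup G} {m : G} (h : ∀ x ∈ H, m * x * m⁻¹ ∈ H) :
    m ∈ Subgroup.normalizer (H : Set G) := by
  have hmap : H.map (MulAut.conj m).toMonoidHom = H :=
    Subgroup.eq_of_le_of_card_ge (by rintro _ ⟨x, hx, rfl⟩; exact h x hx) (card_map_conj H m).ge
  rw [Subgroup.mem_normalizer_iff]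
  refine fun y => ⟨h y, fun hy => ?_⟩
  rw [← hmap] at hy
  obtain ⟨x, hx, e⟩ := hy
  exact (MulAut.conj m).injective (e : (MulAut.conj m) x = (MulAut.conj m) y) ▸ hx

theorem orbit_count (M : Subgroup G) (a : G) (S : Finset G)
    (hS : ∀ b, b ∈ S ↔ ∃ m ∈ M, m * a * m⁻¹ = b) :
    Nat.card ↥M = S.card * Nat.card ↥(M ⊓ Subgroup.centralizer ({a} : Set G)) := by
  set K := (M ⊓ Subgroup.centralizer ({a} : Set G)).subgroupOf M
  have hK : ∀ m n : ↥M, m⁻¹ * n ∈ K ↔ (m : G) * a * (m : G)⁻¹ = (n : G) * a * (n : G)⁻¹ := by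
    intro m n
    simp only [K, Subgroup.mem_subgroupOf, Subgroup.mem_inf, Subgroup.mem_centralizer_singleton_iff,
      Subgroup.coe_mul, InvMemClass.coe_inv]
    refine ⟨fun h => ?_, fun h => ⟨mul_mem (inv_mem m.2) n.2, ?_⟩⟩
    · have := congrArg (fun y => (m : G) * y * (n : G)⁻¹) h.2
      simpa [mul_assoc] using this.symm
    · have := congrArg (fun y => (m : G)⁻¹ * y * (n : G)) h
      simpa [mul_assoc] using this.symm
  let f : ↥M ⧸ K → {b // b ∈ S} := fun q => Quotient.liftOn' q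
    (fun m => ⟨(m : G) * a * (m : G)⁻¹, (hS _).2 ⟨m, m.2, rfl⟩⟩)
    (fun m n h => Subtype.ext ((hK m n).1 (QuotientGroup.leftRel_apply.1 h)))
  have hf : Function.Bijective f := by
    refine ⟨?_, fun b => ?_⟩
    · rintro ⟨m⟩ ⟨n⟩ h
      exact QuotientGroup.eq.2 ((hK m n).2 (congrArg Subtype.val h))
    · obtain ⟨m, hm, e⟩ := (hS _).1 b.2
      exact ⟨QuotientGroup.mk ⟨m, hm⟩, Subtype.ext e⟩
  rw [Subgroup.card_eq_card_quotient_mul_card_subgroup K, Nat.card_congr (Equiv.ofBijective f hf),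
    Nat.card_eq_fintype_card, Fintype.card_coe,
    Nat.card_congr (Subgroup.subgroupOfEquivOfLe inf_le_left).toEquiv]

/-- The orbit of a member under conjugation by a subgroup. -/
def conjOrbit (M : Subgroup G) (a : G) : Set G := {v : G | ∃ n ∈ M, n * a * n⁻¹ = v}

theorem orbit_ncard_mul (M : Subgroup G) (a : G) :
    Nat.card ↥M = (conjOrbit M a).ncard * Nat.card ↥(M ⊓ Subgroup.centralizer ({a} : Set G)) := by
  rw [Set.ncard_eq_toFinset_card _ (Set.toFinite _)]
  exact orbit_count M a _ fun b => Set.Finite.mem_toFinset _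

end General

namespace Hyp

variable {G : Type*} [Group G] [Finite G] {z : G} {C : Cfg G}

theorem exists_sylow (h : Hyp z C) : ∃ S : Sylow 2 G, C.V ≤ (S : Subgroup G) ∧
    (∀ x ∈ (S : Subgroup G), x * z = z * x) ∧
    (S : Subgroup G) ≤ Subgroup.normalizer (C.V : Set G) := by
  obtain ⟨S, hV, hc⟩ := h.central
  refine ⟨S, hV, hc, fun s hs => mem_normalizer_of_le fun x hx => ?_⟩
  have hmap : C.V.map (MulAut.conj s).toMonoidHom = C.V :=
    (h.top S).unique ⟨by rintro _ ⟨a, ha, rfl⟩; exact mul_mem (mul_mem hs (hV ha)) (inv_mem hs),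
      elementary_map_conj s h.elem, (card_map_conj C.V s).trans C.M.card⟩ ⟨hV, h.elem, C.M.card⟩
  exact hmap ▸ conj_mem_map s hx

theorem not_le_V (_ : Hyp z C) {A : Subgroup G} (hcard : Nat.card A = 2 ^ 10)
    (hself : Subgroup.centralizer (A : Set G) = A) : ¬ A ≤ C.V := by
  intro hle
  have hV : C.V ≤ A := by
    conv_rhs => rw [← hself]
    exact fun v hv => Subgroup.mem_centralizer_iff.2 fun a ha => C.M.comm (hle ha) hv
  have h2 := Subgroup.card_le_of_le hV
  rw [C.M.card, hcard] at h2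
  norm_num at h2

theorem exists_to_A0 (h : Hyp z C) {A : Subgroup G} (hel : Cfsg.IsElementaryAbelian 2 A)
    (hcard : Nat.card A = 2 ^ 10) (hself : Subgroup.centralizer (A : Set G) = A) (g : G)
    (hg : ∀ a ∈ A, g * a * g⁻¹ ∈ Subgroup.normalizer (C.V : Set G)) :
    ∃ m ∈ Subgroup.normalizer (C.V : Set G),
      A.map (MulAut.conj (m * g)).toMonoidHom = C.A0 := by
  obtain ⟨m, hm, e⟩ := C.exists_conj_A0 (elementary_map_conj g hel)
    ((card_map_conj A g).trans hcard) (by rintro _ ⟨a, ha, rfl⟩; exact hg a ha)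
    (h.not_le_V ((card_map_conj A g).trans hcard) (self_map_conj g hself))
  refine ⟨m, hm, ?_⟩
  rw [← e, Subgroup.map_map]
  congr 1
  ext x
  simp [mul_assoc]

theorem exists_conj (h : Hyp z C) {A : Subgroup G} (hel : Cfsg.IsElementaryAbelian 2 A)
    (hcard : Nat.card A = 2 ^ 10) (hself : Subgroup.centralizer (A : Set G) = A) :
    ∃ g : G, A.map (MulAut.conj g).toMonoidHom = C.A0 := by
  obtain ⟨S, -, -, hN⟩ := h.exists_sylow
  obtain ⟨P, hP⟩ := (IsPGroup.of_card hcard).exists_le_sylow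
  obtain ⟨g, hg⟩ := MulAction.exists_smul_eq G P S
  obtain ⟨m, -, e⟩ := h.exists_to_A0 hel hcard hself g fun a ha => hN (by
    rw [← hg, Sylow.coe_subgroup_smul, Subgroup.mem_pointwise_smul_iff_inv_smul_mem,
      ← map_inv, MulAut.smul_def, MulAut.conj_apply]
    rw [show g⁻¹ * (g * a * g⁻¹) * g⁻¹⁻¹ = a by group]
    exact hP ha)
  exact ⟨_, e⟩

section Orbit

variable (h : Hyp z C) (o : C.Orbits)
include h

theorem duad_class {x : G} (hx : x ∈ o.duad) : x ∈ C.A0 ∧ x ∈ C.V ∧ x ≠ 1 ∧ ¬ IsConj z x := by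
  obtain ⟨hA, h1⟩ := (o.cover x).2 (Or.inl hx)
  obtain ⟨hV, hpq⟩ := (o.duad_iff x hA).1 hx
  exact ⟨hA, hV, h1, (h.classV x hV h1).2 hpq⟩

theorem sext_class {x : G} (hx : x ∈ o.sext) : x ∈ C.A0 ∧ x ∈ C.V ∧ x ≠ 1 ∧ IsConj z x := by
  obtain ⟨hA, -⟩ := (o.cover x).2 (Or.inr (Or.inl hx))
  obtain ⟨hV, h1, hd⟩ := (o.sext_iff x hA).1 hx
  refine ⟨hA, hV, h1, by_contra fun hn => hd ?_⟩
  exact (o.duad_iff x hA).2 ⟨hV, (h.classV x hV h1).1 hn⟩

include o in
theorem centralizer_le : Subgroup.centralizer (C.A0 : Set G) ≤ C.A0 := by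
  obtain ⟨t, ht⟩ : o.duad.Nonempty :=
    Set.nonempty_of_ncard_ne_zero (by rw [o.card_duad]; norm_num)
  obtain ⟨hA, hV, h1, hn⟩ := h.duad_class o ht
  intro x hx
  refine C.centralizer_inf_le hx (h.centT t hV h1 hn ?_)
  rw [Subgroup.mem_centralizer_singleton_iff]
  exact (Subgroup.mem_centralizer_iff.1 hx t hA).symm

include o in
theorem self_A0 : Subgroup.centralizer (C.A0 : Set G) = C.A0 :=
  le_antisymm (h.centralizer_le o) fun x hx => Subgroup.mem_centralizer_iff.2 fun a ha =>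
    congrArg Subtype.val (C.A0_elementary.1.is_comm.comm ⟨a, ha⟩ ⟨x, hx⟩)

include o in
theorem exists_to_V {x : G} (hx : x ∈ C.A0) (h1 : x ≠ 1) :
    ∃ n ∈ Subgroup.normalizer (C.A0 : Set G), n * x * n⁻¹ ∈ C.V := by
  suffices hg : ∃ g : G, g * x * g⁻¹ ∈ C.V ∧
      ∀ a ∈ C.A0, g * a * g⁻¹ ∈ Subgroup.normalizer (C.V : Set G) by
    obtain ⟨g, hgx, hgA⟩ := hg
    obtain ⟨m, hm, e⟩ := h.exists_to_A0 C.A0_elementary C.card_A0 (h.self_A0 o) g hgA
    refine ⟨m * g, mem_normalizer_of_le fun a ha => e.le (conj_mem_map _ ha), ?_⟩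
    rw [show m * g * x * (m * g)⁻¹ = m * (g * x * g⁻¹) * m⁻¹ by group]
    exact (Subgroup.mem_normalizer_iff.1 hm _).1 hgx
  have hord : orderOf x = 2 := orderOf_eq_prime (C.A0_elementary.2 x hx) h1
  by_cases hz : IsConj z x
  · obtain ⟨S, -, hc, hN⟩ := h.exists_sylow
    obtain ⟨g, hg⟩ := isConj_iff.1 hz
    have hA : C.A0 ≤ Subgroup.centralizer ({x} : Set G) := fun a ha =>
      Subgroup.mem_centralizer_singleton_iff.2
        (congrArg Subtype.val (C.A0_elementary.1.is_comm.comm ⟨a, ha⟩ ⟨x, hx⟩))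
    have hS : ((g • S : Sylow 2 G) : Subgroup G) ≤ Subgroup.centralizer ({x} : Set G) := by
      intro y hy
      rw [Sylow.coe_subgroup_smul, Subgroup.mem_pointwise_smul_iff_inv_smul_mem, ← map_inv,
        MulAut.smul_def, MulAut.conj_apply, inv_inv] at hy
      rw [Subgroup.mem_centralizer_singleton_iff, ← hg]
      have := congrArg (fun u => g * u * g⁻¹) (hc _ hy)
      simpa [mul_assoc] using this
    have hA2 : IsPGroup 2 (C.A0.subgroupOf (Subgroup.centralizer ({x} : Set G))) :=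
      (IsPGroup.of_card C.card_A0).of_equiv (Subgroup.subgroupOfEquivOfLe hA).symm
    obtain ⟨P, hP⟩ := hA2.exists_le_sylow
    obtain ⟨c, hcP⟩ := MulAction.exists_smul_eq (Subgroup.centralizer ({x} : Set G)) P
      ((g • S : Sylow 2 G).subtype hS)
    have hcx := Subgroup.mem_centralizer_singleton_iff.1 c.2
    refine ⟨g⁻¹ * c, ?_, fun a ha => hN ?_⟩
    · rw [show g⁻¹ * (c : G) * x * (g⁻¹ * (c : G))⁻¹ = g⁻¹ * ((c : G) * x * (c : G)⁻¹) * g by group,
        hcx, mul_inv_cancel_right, ← hg, show g⁻¹ * (g * z * g⁻¹) * g = z by group]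
      exact h.z_mem
    · have hac : c * ⟨a, hA ha⟩ * c⁻¹ ∈ (((g • S : Sylow 2 G).subtype hS : Sylow 2 _) :
          Subgroup ↥(Subgroup.centralizer ({x} : Set G))) := by
        rw [← hcP, Sylow.coe_subgroup_smul, Subgroup.mem_pointwise_smul_iff_inv_smul_mem,
          ← map_inv, MulAut.smul_def, MulAut.conj_apply, inv_inv]
        rw [show c⁻¹ * (c * ⟨a, hA ha⟩ * c⁻¹) * c = ⟨a, hA ha⟩ by group]
        exact hP (Subgroup.mem_subgroupOf.2 ha)
      rw [Sylow.coe_subtype, Subgroup.mem_subgroupOf, Sylow.coe_subgroup_smul,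
        Subgroup.mem_pointwise_smul_iff_inv_smul_mem, ← map_inv, MulAut.smul_def,
        MulAut.conj_apply, inv_inv] at hac
      simpa [mul_assoc] using hac
  · obtain ⟨g, hg⟩ := h.invol x hord hz
    refine ⟨g, hg, fun a ha => h.centT _ hg ?_ ?_ ?_⟩
    · intro e
      exact h1 (conj_eq_one_iff.1 e)
    · exact fun e => hz (e.trans (isConj_iff.2 ⟨g⁻¹, by group⟩))
    · rw [Subgroup.mem_centralizer_singleton_iff]
      have := congrArg (fun u => g * u * g⁻¹)
        (congrArg Subtype.val (C.A0_elementary.1.is_comm.comm ⟨a, ha⟩ ⟨x, hx⟩))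
      simpa [mul_assoc] using this

include o in
theorem cover_A0_inf_V {x : G} (hA : x ∈ C.A0) (hV : x ∈ C.V) (h1 : x ≠ 1) :
    x ∈ o.duad ∨ x ∈ o.sext := by
  by_cases hd : x ∈ o.duad
  · exact Or.inl hd
  · exact Or.inr ((o.sext_iff x hA).2 ⟨hV, h1, hd⟩)

include o in
theorem conj_to_rep {x : G} (hx : x ∈ C.A0) (h1 : x ≠ 1) :
    ∃ n ∈ Subgroup.normalizer (C.A0 : Set G), n * x * n⁻¹ ∈ o.duad ∨ n * x * n⁻¹ ∈ o.sext := by
  obtain ⟨n, hn, hV⟩ := h.exists_to_V o hx h1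
  exact ⟨n, hn, h.cover_A0_inf_V o ((Subgroup.mem_normalizer_iff.1 hn x).1 hx) hV
    fun e => h1 (conj_eq_one_iff.1 e)⟩

theorem conjOrbit_eq {t : G} (ht : t ∈ o.duad) :
    conjOrbit (Subgroup.normalizer (C.A0 : Set G)) t =
      {x | x ∈ C.A0 ∧ x ≠ 1 ∧ ¬ IsConj z x} := by
  obtain ⟨htA, htV, ht1, htz⟩ := h.duad_class o ht
  ext x
  constructor
  · rintro ⟨n, hn, rfl⟩
    exact ⟨(Subgroup.mem_normalizer_iff.1 hn t).1 htA, fun e => ht1 (conj_eq_one_iff.1 e),
      fun e => htz (e.trans (isConj_iff.2 ⟨n⁻¹, by group⟩))⟩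
  · rintro ⟨hA, h1, hz⟩
    obtain ⟨n, hn, hd⟩ := h.conj_to_rep o hA h1
    rcases hd with hd | hd
    · obtain ⟨m, hm, e⟩ := o.conj o.duad (by simp) t ht _ hd
      refine ⟨n⁻¹ * m, mul_mem (inv_mem hn) hm.1, ?_⟩
      rw [show n⁻¹ * m * t * (n⁻¹ * m)⁻¹ = n⁻¹ * (m * t * m⁻¹) * n by group, e]
      group
    · exact absurd ((h.sext_class o hd).2.2.2.trans (isConj_iff.2 ⟨n⁻¹, by group⟩)) hz

theorem conjOrbit_J {t : G} (ht : t ∈ o.duad) : conjOrbit C.J t = o.duad := by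
  obtain ⟨htA, htV, ht1, htz⟩ := h.duad_class o ht
  ext x
  constructor
  · rintro ⟨m, hm, rfl⟩
    have hA := (Subgroup.mem_normalizer_iff.1 hm.1 t).1 htA
    have hV := (Subgroup.mem_normalizer_iff.1 hm.2 t).1 htV
    have h1 : m * t * m⁻¹ ≠ 1 := fun e => ht1 (conj_eq_one_iff.1 e)
    exact (o.duad_iff _ hA).2 ⟨hV, (h.classV _ hV h1).1
      fun e => htz (e.trans (isConj_iff.2 ⟨m⁻¹, by group⟩))⟩
  · exact fun hx => o.conj o.duad (by simp) t ht x hx

theorem centralizer_eq {t : G} (ht : t ∈ o.duad) :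
    Subgroup.normalizer (C.A0 : Set G) ⊓ Subgroup.centralizer ({t} : Set G) =
      C.J ⊓ Subgroup.centralizer ({t} : Set G) := by
  obtain ⟨-, htV, ht1, htz⟩ := h.duad_class o ht
  refine le_antisymm (fun x hx => ⟨⟨hx.1, h.centT t htV ht1 htz hx.2⟩, hx.2⟩) ?_
  exact inf_le_inf_right _ inf_le_left

theorem ncard_class : {x | x ∈ C.A0 ∧ x ≠ 1 ∧ ¬ IsConj z x}.ncard = 868 ∧
    Nat.card (Subgroup.normalizer (C.A0 : Set G)) = 2 ^ 10 * 9999360 ∧
    (∀ x, (x ∈ o.sext ∨ x ∈ o.low) ↔ (x ∈ C.A0 ∧ x ≠ 1 ∧ IsConj z x)) := by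
  obtain ⟨t, ht⟩ : o.duad.Nonempty :=
    Set.nonempty_of_ncard_ne_zero (by rw [o.card_duad]; norm_num)
  set N := Subgroup.normalizer (C.A0 : Set G) with hNdef
  set T := {x | x ∈ C.A0 ∧ x ≠ 1 ∧ ¬ IsConj z x} with hTdef
  have hN : Nat.card N = T.ncard * Nat.card ↥(C.J ⊓ Subgroup.centralizer ({t} : Set G)) := by
    rw [hTdef, ← h.conjOrbit_eq o ht, ← h.centralizer_eq o ht]
    exact orbit_ncard_mul _ _
  have hJ : Nat.card C.J = 28 * Nat.card ↥(C.J ⊓ Subgroup.centralizer ({t} : Set G)) := by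
    rw [← o.card_duad, ← h.conjOrbit_J o ht]
    exact orbit_ncard_mul _ _
  obtain ⟨i, hi⟩ := Subgroup.card_dvd_of_le (show C.J ≤ N from inf_le_left)
  have hT28 : T.ncard = 28 * i := by
    have hc : 0 < Nat.card ↥(C.J ⊓ Subgroup.centralizer ({t} : Set G)) := Nat.card_pos
    refine Nat.eq_of_mul_eq_mul_right hc ?_
    rw [← hN, hi, hJ]
    ring
  have hi1 : i ≠ 1 := by
    rintro rfl
    obtain ⟨x, hx⟩ : o.low.Nonempty :=
      Set.nonempty_of_ncard_ne_zero (by rw [o.card_low]; norm_num)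
    obtain ⟨hA, h1⟩ := (o.cover x).2 (Or.inr (Or.inr (Or.inl hx)))
    obtain ⟨n, hn, hV⟩ := h.exists_to_V o hA h1
    have hnJ : n ∈ C.J := Subgroup.eq_of_le_of_card_ge (show C.J ≤ N from inf_le_left)
      (by rw [hi, mul_one]) ▸ hn
    rcases h.cover_A0_inf_V o hA ((Subgroup.mem_normalizer_iff.1 hnJ.2 x).2 hV) h1 with hd | hd
    · exact Set.disjoint_left.1 o.disj_duad_low hd hx
    · exact Set.disjoint_left.1 o.disj_sext_low hd hx
  have hclass : ∀ O ∈ [o.duad, o.sext, o.low, o.high], O ⊆ T ∨ Disjoint O T := by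
    intro O hO
    by_cases he : Disjoint O T
    · exact Or.inr he
    · obtain ⟨x, hxO, hxT⟩ := Set.not_disjoint_iff.1 he
      refine Or.inl fun y hy => ?_
      obtain ⟨m, hm, rfl⟩ := o.conj O hO x hxO y hy
      exact ⟨(Subgroup.mem_normalizer_iff.1 hm.1 x).1 hxT.1,
        fun e => hxT.2.1 (conj_eq_one_iff.1 e),
        fun e => hxT.2.2 (e.trans (isConj_iff.2 ⟨m⁻¹, by group⟩))⟩
  have hd : o.duad ⊆ T := fun x hx =>
    ⟨(h.duad_class o hx).1, (h.duad_class o hx).2.2.1, (h.duad_class o hx).2.2.2⟩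
  have hs : Disjoint o.sext T := Set.disjoint_left.2 fun x hx hT => hT.2.2 (h.sext_class o hx).2.2.2
  have hsub : T ⊆ o.duad ∪ o.low ∪ o.high := by
    intro x hx
    rcases (o.cover x).1 ⟨hx.1, hx.2.1⟩ with e | e | e | e
    · exact Or.inl (Or.inl e)
    · exact absurd hx (Set.disjoint_left.1 hs e)
    · exact Or.inl (Or.inr e)
    · exact Or.inr e
  have key : T = o.duad ∪ o.high := by
    rcases hclass o.low (by simp) with hl | hl <;> rcases hclass o.high (by simp) with hh | hh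
    · exfalso
      have hTeq : T = o.duad ∪ o.low ∪ o.high :=
        hsub.antisymm (Set.union_subset (Set.union_subset hd hl) hh)
      rw [hTeq, Set.ncard_union_eq (Set.disjoint_union_left.2
        ⟨o.disj_duad_high, o.disj_low_high⟩), Set.ncard_union_eq o.disj_duad_low,
        o.card_duad, o.card_low, o.card_high] at hT28
      omega
    · exfalso
      have hTeq : T = o.duad ∪ o.low := (Set.union_subset hd hl).antisymm' fun x hx =>
        (hsub hx).resolve_right fun e => Set.disjoint_left.1 hh e hx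
      rw [hTeq, Set.ncard_union_eq o.disj_duad_low, o.card_duad, o.card_low] at hT28
      omega
    · refine (Set.union_subset hd hh).antisymm' fun x hx => ?_
      rcases hsub hx with (e | e) | e
      · exact Or.inl e
      · exact absurd hx (Set.disjoint_left.1 hl e)
      · exact Or.inr e
    · exfalso
      have hTeq : T = o.duad := hd.antisymm' fun x hx => by
        rcases hsub hx with (e | e) | e
        · exact e
        · exact absurd hx (Set.disjoint_left.1 hl e)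
        · exact absurd hx (Set.disjoint_left.1 hh e)
      rw [hTeq, o.card_duad] at hT28
      omega
  have h868 : T.ncard = 868 := by
    rw [key, Set.ncard_union_eq o.disj_duad_high, o.card_duad, o.card_high]
  refine ⟨h868, ?_, fun x => ?_⟩
  · rw [hi, C.card_J, show i = 31 by omega]
    norm_num
  · constructor
    · intro hx
      obtain ⟨hA, h1⟩ := (o.cover x).2 (hx.elim (fun e => Or.inr (Or.inl e))
        fun e => Or.inr (Or.inr (Or.inl e)))
      refine ⟨hA, h1, by_contra fun hz => ?_⟩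
      have hT : x ∈ T := ⟨hA, h1, hz⟩
      rw [key] at hT
      rcases hx with e | e <;> rcases hT with e' | e'
      · exact Set.disjoint_left.1 o.disj_duad_sext e' e
      · exact Set.disjoint_left.1 o.disj_sext_high e e'
      · exact Set.disjoint_left.1 o.disj_duad_low e' e
      · exact Set.disjoint_left.1 o.disj_low_high e e'
    · rintro ⟨hA, h1, hz⟩
      have hT : x ∉ o.duad ∪ o.high := key ▸ fun e => e.2.2 hz
      rcases (o.cover x).1 ⟨hA, h1⟩ with e | e | e | e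
      · exact absurd (Or.inl e) hT
      · exact Or.inl e
      · exact Or.inr e
      · exact absurd (Or.inr e) hT

theorem cone_invariant {g : G} (hg : g ∈ Subgroup.normalizer (C.A0 : Set G)) {x : G}
    (hx : x ∈ o.sext ∨ x ∈ o.low) : g * x * g⁻¹ ∈ o.sext ∨ g * x * g⁻¹ ∈ o.low := by
  obtain ⟨hA, h1, hz⟩ := ((h.ncard_class o).2.2 x).1 hx
  exact ((h.ncard_class o).2.2 _).2 ⟨(Subgroup.mem_normalizer_iff.1 hg x).1 hA,
    fun e => h1 (conj_eq_one_iff.1 e), hz.trans (isConj_iff.2 ⟨g, rfl⟩)⟩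

include o in
theorem conjOrbit_z {s : G} (hs : s ∈ o.sext) :
    conjOrbit (Subgroup.normalizer (C.A0 : Set G)) s =
      {x | x ∈ C.A0 ∧ x ≠ 1 ∧ IsConj z x} := by
  obtain ⟨hsA, -, hs1, hsz⟩ := h.sext_class o hs
  ext x
  constructor
  · rintro ⟨n, hn, rfl⟩
    exact ⟨(Subgroup.mem_normalizer_iff.1 hn s).1 hsA, fun e => hs1 (conj_eq_one_iff.1 e),
      hsz.trans (isConj_iff.2 ⟨n, rfl⟩)⟩
  · rintro ⟨hA, h1, hz⟩
    obtain ⟨n, hn, hd⟩ := h.conj_to_rep o hA h1
    rcases hd with hd | hd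
    · exact absurd (hz.trans (isConj_iff.2 ⟨n, rfl⟩)) (h.duad_class o hd).2.2.2
    · obtain ⟨m, hm, e⟩ := o.conj o.sext (by simp) s hs _ hd
      refine ⟨n⁻¹ * m, mul_mem (inv_mem hn) hm.1, ?_⟩
      rw [show n⁻¹ * m * s * (n⁻¹ * m)⁻¹ = n⁻¹ * (m * s * m⁻¹) * n by group, e]
      group

include o in
/-- The two orbits on the standard subgroup. -/
theorem exists_orbits : ∃ a b : G, a ∈ C.A0 ∧ b ∈ C.A0 ∧
    conjOrbit (Subgroup.normalizer (C.A0 : Set G)) a ∪
      conjOrbit (Subgroup.normalizer (C.A0 : Set G)) b = {x | x ∈ C.A0 ∧ x ≠ 1} ∧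
    (conjOrbit (Subgroup.normalizer (C.A0 : Set G)) a).ncard = 155 ∧
    (conjOrbit (Subgroup.normalizer (C.A0 : Set G)) b).ncard = 868 := by
  obtain ⟨s, hs⟩ : o.sext.Nonempty :=
    Set.nonempty_of_ncard_ne_zero (by rw [o.card_sext]; norm_num)
  obtain ⟨t, ht⟩ : o.duad.Nonempty :=
    Set.nonempty_of_ncard_ne_zero (by rw [o.card_duad]; norm_num)
  refine ⟨s, t, (h.sext_class o hs).1, (h.duad_class o ht).1, ?_⟩
  rw [h.conjOrbit_z o hs, h.conjOrbit_eq o ht]
  refine ⟨?_, ?_, (h.ncard_class o).1⟩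
  · ext x
    simp only [Set.mem_union, Set.mem_ofPred_eq]
    tauto
  · rw [show {x | x ∈ C.A0 ∧ x ≠ 1 ∧ IsConj z x} = o.sext ∪ o.low from
      Set.ext fun x => ((h.ncard_class o).2.2 x).symm, Set.ncard_union_eq o.disj_sext_low,
      o.card_sext, o.card_low]

include o in
/-- The normaliser leaves no proper nontrivial subgroup invariant. -/
theorem irreducible {W : Subgroup G} (hW : W ≤ C.A0)
    (hN : Subgroup.normalizer (C.A0 : Set G) ≤ Subgroup.normalizer (W : Set G)) :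
    W = ⊥ ∨ W = C.A0 := by
  classical
  by_cases hb : W = ⊥
  · exact Or.inl hb
  right
  obtain ⟨x, hxW, hx1⟩ : ∃ x ∈ W, x ≠ 1 := by
    by_contra hc
    push Not at hc
    exact hb ((Subgroup.eq_bot_iff_forall _).2 hc)
  obtain ⟨a, b, -, -, hu, hca, hcb⟩ := h.exists_orbits o
  have hinv : ∀ c, ∀ y ∈ conjOrbit (Subgroup.normalizer (C.A0 : Set G)) c, y ∈ W →
      conjOrbit (Subgroup.normalizer (C.A0 : Set G)) c ⊆ (W : Set G) := by
    rintro c y ⟨n, hn, rfl⟩ hyW _ ⟨n', hn', rfl⟩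
    have := (Subgroup.mem_normalizer_iff.1 (hN (mul_mem hn' (inv_mem hn))) _).1 hyW
    rwa [show n' * n⁻¹ * (n * c * n⁻¹) * (n' * n⁻¹)⁻¹ = n' * c * n'⁻¹ by group] at this
  have hW1 : Nat.card W ∣ 2 ^ 10 := C.card_A0 ▸ Subgroup.card_dvd_of_le hW
  obtain ⟨k, hk, hk'⟩ := (Nat.dvd_prime_pow Nat.prime_two).1 hW1
  have hWcard : (W : Set G).ncard = 2 ^ k := by
    rw [← hk', ← Nat.card_coe_set_eq]
    rfl
  have hbig : 2 ^ k = 2 ^ 10 → W = C.A0 := fun e =>
    Subgroup.eq_of_le_of_card_ge hW (by rw [C.card_A0, hk', e])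
  by_cases hB : ∃ y ∈ W, y ∈ conjOrbit (Subgroup.normalizer (C.A0 : Set G)) b
  · obtain ⟨y, hyW, hy⟩ := hB
    have hle := Set.ncard_le_ncard (hinv b y hy hyW) (Set.toFinite _)
    rw [hcb, hWcard] at hle
    refine hbig ?_
    interval_cases k <;> simp_all
  · exfalso
    push Not at hB
    have hxa : x ∈ conjOrbit (Subgroup.normalizer (C.A0 : Set G)) a := by
      have : x ∈ {x | x ∈ C.A0 ∧ x ≠ 1} := ⟨hW hxW, hx1⟩
      rw [← hu] at this
      exact this.resolve_right (hB x hxW)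
    have hWeq : (W : Set G) = insert 1 (conjOrbit (Subgroup.normalizer (C.A0 : Set G)) a) := by
      refine Set.Subset.antisymm (fun y hy => ?_)
        (Set.insert_subset (one_mem W) (hinv a x hxa hxW))
      by_cases hy1 : y = 1
      · exact Or.inl hy1
      · have : y ∈ {x | x ∈ C.A0 ∧ x ≠ 1} := ⟨hW hy, hy1⟩
        rw [← hu] at this
        exact Or.inr (this.resolve_right (hB y hy))
    have h1a : (1 : G) ∉ conjOrbit (Subgroup.normalizer (C.A0 : Set G)) a := by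
      intro h1a
      have h1u : (1 : G) ∈ {x | x ∈ C.A0 ∧ x ≠ 1} := by
        rw [← hu]
        exact Or.inl h1a
      exact h1u.2 rfl
    rw [hWeq, Set.ncard_insert_of_notMem h1a (Set.toFinite _), hca] at hWcard
    interval_cases k <;> simp at hWcard

end Orbit

end Hyp

end CfsgLib.J4Ten31
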