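import Cfsg.Agent.J4Ten31.Cocode
import Cfsg.Agent.Mathieu.FusionM24

/-!
Search through the elementary abelian subgroups of a Sylow two-subgroup of `M24`: only one has
a product of its order and of its fixed cocode vectors of at least `2 ^ 10`.
-/

set_option autoImplicit false

namespace CfsgLib.J4Ten31

open Cfsg
open CfsgLib.Mathieu.Code (cmpC idC ap spanR certM24)

/-- Membership in the span of a list of pairs. -/
def Sp : List (ℕ × ℕ) → ℕ × ℕ → Prop
  | [], x => x = (0, 0)
  | q :: l, x => Sp l x ∨ Sp l (x.1 ^^^ q.1, x.2 ^^^ q.2)

/-- Membership in the span of a list. -/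
def Sp1 : List ℕ → ℕ → Prop
  | [], y => y = 0
  | b :: l, y => Sp1 l y ∨ Sp1 l (y ^^^ b)

/-- One elimination step. -/
def red1 (p q : ℕ × ℕ) : ℕ × ℕ :=
  if q.2.testBit p.2.log2 then (q.1 ^^^ p.1, q.2 ^^^ p.2) else q

/-- The first entries of the members of the span with second entry zero. -/
def elim : ℕ → List (ℕ × ℕ) → List ℕ
  | 0, l => l.map Prod.fst
  | _ + 1, [] => []
  | f + 1, q :: l => if q.2 == 0 then q.1 :: elim f l else elim f (l.map (red1 q))

theorem sp_fst : ∀ {l : List (ℕ × ℕ)} {x : ℕ × ℕ}, Sp l x → Sp1 (l.map Prod.fst) x.1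
  | [], _, h => by rw [Sp] at h; subst h; rfl
  | q :: l, x, h => h.elim (fun h => Or.inl (sp_fst h)) fun h => Or.inr (sp_fst h)

theorem red1_add (p x y : ℕ × ℕ) :
    red1 p (x.1 ^^^ y.1, x.2 ^^^ y.2) =
      ((red1 p x).1 ^^^ (red1 p y).1, (red1 p x).2 ^^^ (red1 p y).2) := by
  simp only [red1, Nat.testBit_xor]
  cases x.2.testBit p.2.log2 <;> cases y.2.testBit p.2.log2 <;>
    simp [Nat.xor_assoc, Nat.xor_comm, Nat.xor_left_comm]

theorem sp_map (p : ℕ × ℕ) : ∀ {l : List (ℕ × ℕ)} {x : ℕ × ℕ}, Sp l x →
    Sp (l.map (red1 p)) (red1 p x)
  | [], x, h => by rw [Sp] at h; subst h; simp [Sp, red1]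
  | q :: l, x, h => by
    rcases h with h | h
    · exact Or.inl (sp_map p h)
    · refine Or.inr ?_
      have := sp_map p h
      rw [red1_add] at this
      exact this

theorem elim_spec : ∀ (f : ℕ) (l : List (ℕ × ℕ)) (y : ℕ), Sp l (y, 0) → Sp1 (elim f l) y
  | 0, _, _, h => sp_fst h
  | _ + 1, [], _, h => by
    rw [Sp, Prod.mk.injEq] at h
    exact h.1
  | f + 1, q :: l, y, h => by
    rw [elim]
    split
    · next hq =>
      rw [beq_iff_eq] at hq
      rcases h with h | h
      · exact Or.inl (elim_spec f l y h)
      · refine Or.inr (elim_spec f l _ ?_)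
        simpa [hq] using h
    · next hq =>
      rw [beq_iff_eq] at hq
      apply elim_spec f
      rcases h with h | h
      · have := sp_map q h
        simpa [red1] using this
      · have := sp_map q h
        have ht : q.2.testBit q.2.log2 = true := Nat.testBit_log2 hq
        simpa [red1, ht, Nat.xor_assoc] using this

/-- The fixed part of a span. -/
def fixStep (P : ℕ) (W : List ℕ) : List ℕ :=
  elim (W.length + 1) (W.map fun w => (w, act P w ^^^ w))

theorem fixStep_spec {g : Equiv.Perm GolayPt} {W : List ℕ} {y : ℕ}
    (hy : Sp1 W y) (hfix : act (Mathieu.Code.code g) y = y) :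
    Sp1 (fixStep (Mathieu.Code.code g) W) y := by
  have key : ∀ (L : List ℕ) (x : ℕ), Sp1 L x →
      Sp (L.map fun w => (w, act (Mathieu.Code.code g) w ^^^ w))
        (x, act (Mathieu.Code.code g) x ^^^ x) := by
    intro L
    induction L with
    | nil => intro x h; rw [Sp1] at h; subst h; simp [Sp, act_zero]
    | cons b L ih =>
      intro x h
      rcases h with h | h
      · exact Or.inl (ih x h)
      · refine Or.inr ?_
        have := ih _ h
        rw [act_xor] at this
        convert this using 2
        simp only [Prod.mk.injEq, true_and] at *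
        simp only [Nat.xor_assoc, Nat.xor_comm, Nat.xor_left_comm]
  refine elim_spec _ _ _ ?_
  have := key W y hy
  rwa [hfix, Nat.xor_self] at this

/-- Two codes commute. -/
def commC (a b : ℕ) : Bool := (List.range 24).all fun i => ap a (ap b i) == ap b (ap a i)

/-- The members of the exceptional subgroup. -/
def eList : List (ℕ × ℕ) :=
  [(3060884162497229114428174945606071, 3060884162497229114428174945606071),
    (62526373840948765062989544689865453, 62526373840948765062989544689865453),
    (83915442407724642926385490054732950, 83915442407724642926385490054732950),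
    (216824804891068451800348655785980585, 216824804891068451800348655785980585)]

/-- The sixteen codes of the exceptional subgroup. -/
def eCodes : List ℕ := spanR eList.reverse

/-- Same members as the exceptional subgroup. -/
def isTarget (B : List ℕ) : Bool := B.length == 16 && eCodes.all fun c => B.contains c

/-- Evaluation of a number before use. -/
def forceN (x : ℕ) (k : ℕ → Bool) : Bool := Nat.rec (k 0) (fun n _ => k (n + 1)) x

/-- Evaluation of a list of numbers before use. -/
def forceL : List ℕ → (List ℕ → Bool) → Bool
  | [], k => k []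
  | x :: l, k => forceN x fun x' => forceL l fun l' => k (x' :: l')

theorem forceN_eq (x : ℕ) (k : ℕ → Bool) : forceN x k = k x := by cases x <;> rfl

theorem forceL_eq : ∀ (l : List ℕ) (k : List ℕ → Bool), forceL l k = k l
  | [], _ => rfl
  | x :: l, k => by rw [forceL, forceN_eq, forceL_eq l]

/-- A test on all members of a list with the later members. -/
def suffAll (P : ℕ → List ℕ → Bool) : List ℕ → Bool
  | [] => true
  | j :: r => P j r && suffAll P r

/-- The next candidates. -/
def nextCand (j : ℕ) (nb rest : List ℕ) : List ℕ :=
  rest.filter fun c => commC j c && !(nb.contains c)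

/-- The search. -/
def dfs : ℕ → List ℕ → List ℕ → List ℕ → Bool
  | 0, _, _, _ => false
  | f + 1, B, W, cand =>
    (decide (2 ^ W.length * B.length < 1024) || isTarget B) &&
      suffAll (fun j rest =>
        !(B.all fun b => forceN (cmpC b j) fun c => c == j || rest.contains c) ||
          forceL (B.map fun b => cmpC b j) fun nb =>
            forceL (fixStep j W) fun W' =>
              forceL (nextCand j nb rest) fun C =>
                decide (2 ^ W'.length * (2 * B.length + C.length) < 1024) || dfs f (B ++ nb) W' C)
        cand

/-- The series of the Sylow subgroup. -/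
abbrev pcS : List (ℕ × ℕ) := certM24.pc

/-- The involutions of the Sylow subgroup. -/
def invS : List ℕ := (spanR pcS).filter fun x => x != idC && cmpC x x == idC

/-- A basis of the even syndromes. -/
def evenBasis : List ℕ := [3, 5, 9, 17, 33, 65, 129, 257, 513, 1025, 2049]

/-- The search below one involution. -/
def rootOK (j : ℕ) (rest : List ℕ) : Bool :=
  forceL (fixStep j evenBasis) fun W =>
    forceL (rest.filter fun c => commC j c) fun C =>
      decide (2 ^ W.length * (2 + C.length) < 1024) || forceL [idC, j] fun B => dfs 7 B W C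

end CfsgLib.J4Ten31
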