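import Cfsg.Agent.J4Ten31.SearchData

/-!
The search succeeds below each orbit minimum.
-/

set_option autoImplicit false

namespace CfsgLib.J4Ten31

open CfsgLib.Mathieu.Code (idC cmpC spanR)

/-- The search below the member in the given position. -/
def posOK (i : ℕ) : Bool := forceL [ordList.getD i 0] fun l => rootOK (l.getD 0 0) (ordList.drop (i + 1))

theorem search_A : ([0, 16, 32, 48, 56, 64, 72]).all posOK = true := by decide +kernel

theorem search_B : ([80]).all posOK = true := by decide +kernel

theorem search_C : ([96]).all posOK = true := by decide +kernel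

theorem search_D : ([112, 120, 128, 136]).all posOK = true := by decide +kernel

theorem search_E : ([144, 152, 160, 164, 168, 172, 176, 180, 184, 186, 188, 190]).all posOK = true := by decide +kernel

attribute [local irreducible] posOK in
theorem search_roots : ∀ i ∈ rootList, posOK i = true := by
  intro i hi
  have h : i ∈ ([0, 16, 32, 48, 56, 64, 72] : List ℕ) ∨ i ∈ ([80] : List ℕ) ∨ i ∈ ([96] : List ℕ) ∨
      i ∈ ([112, 120, 128, 136] : List ℕ) ∨
      i ∈ ([144, 152, 160, 164, 168, 172, 176, 180, 184, 186, 188, 190] : List ℕ) := by
    simp only [rootList, List.mem_cons, List.not_mem_nil, or_false] at hi ⊢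
    omega
  rcases h with h | h | h | h | h
  exacts [List.all_eq_true.1 search_A i h, List.all_eq_true.1 search_B i h,
    List.all_eq_true.1 search_C i h, List.all_eq_true.1 search_D i h,
    List.all_eq_true.1 search_E i h]

theorem search_root {i : ℕ} (h : i ∈ rootList) :
    rootOK (ordList.getD i 0) (ordList.drop (i + 1)) = true :=
  Eq.trans (forceL_eq [ordList.getD i 0]
    (fun l => rootOK (l.getD 0 0) (ordList.drop (i + 1)))).symm (search_roots i h)

/-- The code of a product of series members. -/
def wordE : List (ℕ × ℕ) → ℕ → ℕ
  | [], _ => idC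
  | p :: r, i => if i % 2 == 1 then cmpC (wordE r (i / 2)) p.1 else wordE r (i / 2)

theorem wordE_mem : ∀ (pc : List (ℕ × ℕ)) (i : ℕ), wordE pc i ∈ spanR pc
  | [], _ => List.mem_singleton_self _
  | p :: r, i => by
    simp only [wordE, spanR, Mathieu.Code.grow, List.mem_append, List.mem_map]
    split
    · exact Or.inr ⟨_, wordE_mem r _, rfl⟩
    · exact Or.inl (wordE_mem r _)

theorem wit_ok : (witList.all fun q =>
    (wordE pcS q.2.2.2.1 == q.2.1) && Mathieu.Code.okPair q.2.1 q.2.2.1 &&
      decide (q.2.2.2.2 < q.1) &&
      cmpC (cmpC q.2.1 (ordList.getD q.1 0)) q.2.2.1 == ordList.getD q.2.2.2.2 0) = true := by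
  decide +kernel

theorem positions_ok : (List.range 191).all (fun i =>
    rootList.contains i || (witList.map Prod.fst).contains i) = true ∧ ordList.length = 191 := by
  decide +kernel

theorem ord_complete : invS.all (fun x => ordList.contains x) = true := by decide +kernel

theorem eCodes_normal : (pcS.all fun p => eCodes.all fun c =>
    eCodes.contains (cmpC (cmpC p.1 c) p.2)) = true := by
  decide +kernel

end CfsgLib.J4Ten31
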