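import Cfsg.Agent.J4Ten31.Defs
import Cfsg.Agent.J4Ten31.SearchOK

/-!
Soundness of the search.
-/

set_option autoImplicit false

namespace CfsgLib.J4Ten31

open Cfsg
open CfsgLib.Mathieu.Code (code cmpC idC grpOf spanR code_mul code_one code_injective)

theorem sp1_mem : ∀ {l : List ℕ} {y : ℕ}, Sp1 l y → y ∈ Golay.spanList l
  | [], y, h => by rw [Sp1] at h; subst h; simp [Golay.spanList]
  | b :: l, y, h => by
    simp only [Golay.spanList, List.mem_append, List.mem_map]
    rcases h with h | h
    · exact Or.inl (sp1_mem h)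
    · exact Or.inr ⟨y ^^^ b, sp1_mem h, by
        rw [Nat.xor_comm y b, ← Nat.xor_assoc, Nat.xor_self, Nat.zero_xor]⟩

theorem spanList_length : ∀ l : List ℕ, (Golay.spanList l).length = 2 ^ l.length
  | [] => rfl
  | b :: l => by simp [Golay.spanList, spanList_length l, pow_succ]; ring

theorem sp1_of_mem : ∀ {l : List ℕ} {y : ℕ}, y ∈ Golay.spanList l → Sp1 l y
  | [], y, h => by simpa [Golay.spanList, Sp1] using h
  | b :: l, y, h => by
    simp only [Golay.spanList, List.mem_append, List.mem_map] at h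
    rcases h with h | ⟨x, hx, rfl⟩
    · exact Or.inl (sp1_of_mem h)
    · refine Or.inr ?_
      rw [Nat.xor_comm b x, Nat.xor_assoc, Nat.xor_self, Nat.xor_zero]
      exact sp1_of_mem hx

theorem evenBasis_ok : ((List.range 4096).filter vecOK).all
    (fun y => Golay.comb evenBasis (y / 2) == y) = true := by decide +kernel

theorem sp1_comb : ∀ (l : List ℕ) (i : ℕ), Sp1 l (Golay.comb l i)
  | [], _ => rfl
  | b :: l, i => by
    rcases Nat.mod_two_eq_zero_or_one i with h | h
    · exact Or.inl (by simpa [Golay.comb, h] using sp1_comb l (i / 2))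
    · refine Or.inr ?_
      simpa [Golay.comb, h, Nat.xor_comm b, Nat.xor_assoc] using sp1_comb l (i / 2)

theorem sp1_even {y : ℕ} (h : vecOK y = true) : Sp1 evenBasis y := by
  have h2 := List.all_eq_true.1 evenBasis_ok y
    (List.mem_filter.2 ⟨List.mem_range.2 (vecOK_iff.1 h).1, h⟩)
  rw [beq_iff_eq] at h2
  exact h2 ▸ sp1_comb _ _

theorem eCodes_length : eCodes.length = 16 ∧ eCodes.Nodup := by decide +kernel

variable (X : Subgroup (Equiv.Perm GolayPt)) (W : Finset ℕ)

attribute [local irreducible] psi imgC act Mathieu.Code.code Mathieu.Code.cmpC Mathieu.Code.idC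

theorem suffAll_spec {P : ℕ → List ℕ → Bool} : ∀ {l : List ℕ}, suffAll P l = true →
    ∀ (a b : List ℕ) (j : ℕ), l = a ++ j :: b → P j b = true
  | [], _, a, b, j, h => by simp at h
  | x :: r, h, a, b, j, he => by
    rw [suffAll, Bool.and_eq_true] at h
    cases a with
    | nil => simp only [List.nil_append, List.cons.injEq] at he; rw [← he.1, ← he.2]; exact h.1
    | cons y a =>
      simp only [List.cons_append, List.cons.injEq] at he
      exact suffAll_spec h.2 a b j he.2

theorem first_split {p : ℕ → Prop} : ∀ {l : List ℕ}, (∃ x ∈ l, p x) →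
    ∃ a j b, l = a ++ j :: b ∧ p j ∧ ∀ x ∈ a, ¬ p x
  | [], h => by simp at h
  | x :: r, h => by
    by_cases hx : p x
    · exact ⟨[], x, r, rfl, hx, by simp⟩
    · obtain ⟨y, hy, hpy⟩ := h
      obtain ⟨a, j, b, e, hj, ha⟩ := first_split
        ⟨y, (List.mem_cons.1 hy).resolve_left (fun e => hx (e ▸ hpy)), hpy⟩
      refine ⟨x :: a, j, b, by rw [e]; rfl, hj, ?_⟩
      simpa [hx] using ha

theorem commC_of_eq {g h : Equiv.Perm GolayPt} (e : g * h = h * g) :
    commC (code g) (code h) = true := by
  rw [commC, List.all_eq_true]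
  intro i hi
  rw [beq_iff_eq, Mathieu.Code.ap_code h (List.mem_range.1 hi), Mathieu.Code.ap_code',
    Mathieu.Code.ap_code g (List.mem_range.1 hi), Mathieu.Code.ap_code', ← Equiv.Perm.mul_apply, e,
    Equiv.Perm.mul_apply]

theorem dfs_spec (hsq : ∀ g ∈ X, g * g = 1)
    (hfix : ∀ g ∈ X, ∀ y ∈ W, act (code g) y = y)
    (hbig : 1024 ≤ W.card * Nat.card X) :
    ∀ (f : ℕ) (B Wb cand : List ℕ), dfs f B Wb cand = true → idC ∈ B →
      (∀ b ∈ B, ∃ g ∈ X, code g = b) →
      (∀ g ∈ X, ∀ h ∈ X, code g ∈ B → code h ∈ B → code (g * h) ∈ B) →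
      (∀ g ∈ X, code g ∈ B ∨ code g ∈ cand) → (∀ y ∈ W, Sp1 Wb y) →
      ∀ g, g ∈ X ↔ code g ∈ eCodes := by
  classical
  let XC : Finset ℕ := (X : Set (Equiv.Perm GolayPt)).toFinite.toFinset.image code
  have hXC : ∀ c, c ∈ XC ↔ ∃ g ∈ X, code g = c := fun c => by simp [XC]
  have hcard : XC.card = Nat.card X := by
    rw [Finset.card_image_of_injective _ code_injective, ← Set.ncard_eq_toFinset_card,
      ← Nat.card_coe_set_eq]
    rfl
  have hW : ∀ Wb : List ℕ, (∀ y ∈ W, Sp1 Wb y) → W.card ≤ 2 ^ Wb.length := fun Wb h => by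
    rw [← spanList_length]
    exact (Finset.card_le_card (fun y hy => List.mem_toFinset.2 (sp1_mem (h y hy)))).trans
      (List.toFinset_card_le _)
  have hcomm : ∀ g ∈ X, ∀ h ∈ X, g * h = h * g := fun g hg h hh =>
    calc g * h = (g * h)⁻¹ := (inv_eq_of_mul_eq_one_right (hsq _ (mul_mem hg hh))).symm
      _ = h * g := by
        rw [mul_inv_rev, inv_eq_of_mul_eq_one_right (hsq g hg),
          inv_eq_of_mul_eq_one_right (hsq h hh)]
  intro f
  induction f with
  | zero => intro B Wb cand h; simp [dfs] at h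
  | succ f ih =>
    intro B Wb cand hok h1 hB hcl hcov hWb
    rw [dfs, Bool.and_eq_true] at hok
    by_cases hall : ∀ g ∈ X, code g ∈ B
    · have hle : XC ⊆ B.toFinset := fun c hc => by
        obtain ⟨g, hg, rfl⟩ := (hXC c).1 hc
        exact List.mem_toFinset.2 (hall g hg)
      have hlen : Nat.card X ≤ B.length :=
        hcard ▸ (Finset.card_le_card hle).trans (List.toFinset_card_le _)
      have hor := hok.1
      simp only [Bool.or_eq_true, decide_eq_true_eq] at hor
      rcases hor with hsmall | htar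
      · exfalso
        exact absurd hbig (not_le.2 (lt_of_le_of_lt
          (Nat.mul_le_mul (hW Wb hWb) hlen) hsmall))
      · simp only [isTarget, Bool.and_eq_true, beq_iff_eq, List.all_eq_true,
          List.contains_eq_mem, decide_eq_true_eq] at htar
        have heq : eCodes.toFinset = B.toFinset := by
          refine Finset.eq_of_subset_of_card_le (fun c hc =>
            List.mem_toFinset.2 (htar.2 c (List.mem_toFinset.1 hc))) ?_
          rw [List.toFinset_card_of_nodup eCodes_length.2, eCodes_length.1, ← htar.1]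
          exact List.toFinset_card_le _
        intro g
        rw [← List.mem_toFinset, heq, List.mem_toFinset]
        refine ⟨hall g, fun hg => ?_⟩
        obtain ⟨g', hg', e⟩ := hB _ hg
        exact code_injective e ▸ hg'
    · push Not at hall
      obtain ⟨g0, hg0, hg0B⟩ := hall
      obtain ⟨pre, j, rest, hsplit, ⟨hjX, hjB⟩, hpre⟩ :=
        first_split (p := fun c => (∃ g ∈ X, code g = c) ∧ c ∉ B) (l := cand)
          ⟨code g0, (hcov g0 hg0).resolve_left hg0B, ⟨g0, hg0, rfl⟩, hg0B⟩
      obtain ⟨gj, hgj, hj⟩ := hjX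
      have hlater : ∀ g ∈ X, code g ∉ B → code g = j ∨ code g ∈ rest := by
        intro g hg hgB
        have hm := (hcov g hg).resolve_left hgB
        rw [hsplit, List.mem_append, List.mem_cons] at hm
        exact hm.resolve_left fun h => hpre _ h ⟨⟨g, hg, rfl⟩, hgB⟩
      have hnb : ∀ c ∈ B.map (fun b => cmpC b j), (∃ g ∈ X, code g = c) ∧ c ∉ B := by
        intro c hc
        obtain ⟨b, hb, rfl⟩ := List.mem_map.1 hc
        obtain ⟨gb, hgb, rfl⟩ := hB b hb
        refine ⟨⟨gb * gj, mul_mem hgb hgj, by rw [code_mul, hj]⟩, fun hin => hjB ?_⟩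
        have := hcl gb hgb (gb * gj) (mul_mem hgb hgj) hb (by rw [code_mul, hj]; exact hin)
        rwa [← mul_assoc, hsq gb hgb, one_mul, hj] at this
      have h2 := suffAll_spec hok.2 pre rest j hsplit
      simp only [forceL_eq, forceN_eq, Bool.or_eq_true, Bool.not_eq_true', List.all_eq_false,
        decide_eq_true_eq] at h2
      set nb := B.map (fun b => cmpC b j) with hnbdef
      set W' := fixStep j Wb with hW'def
      set C := nextCand j nb rest with hCdef
      have hWb' : ∀ y ∈ W, Sp1 W' y := fun y hy => by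
        rw [hW'def, ← hj]
        exact fixStep_spec (hWb y hy) (hfix gj hgj y hy)
      have hcov' : ∀ g ∈ X, code g ∈ B ++ nb ∨ code g ∈ C := by
        intro g hg
        by_cases hgB : code g ∈ B
        · exact Or.inl (List.mem_append_left _ hgB)
        by_cases hgn : code g ∈ nb
        · exact Or.inl (List.mem_append_right _ hgn)
        rcases hlater g hg hgB with e | e
        · refine absurd ?_ hgn
          exact List.mem_map.2 ⟨idC, h1, by rw [e, ← hj, ← code_one, ← code_mul, one_mul]⟩
        · refine Or.inr (List.mem_filter.2 ⟨e, ?_⟩)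
          simp [← hj, commC_of_eq (hcomm gj hgj g hg), hgn]
      rcases h2 with h2 | h2 | h2
      · exfalso
        obtain ⟨b, hb, hf⟩ := h2
        obtain ⟨⟨g, hg, hgc⟩, hcB⟩ := hnb (cmpC b j) (List.mem_map.2 ⟨b, hb, rfl⟩)
        rcases hlater g hg (hgc ▸ hcB) with e | e
        · rw [hgc] at e; simp [e] at hf
        · rw [hgc] at e; simp [e] at hf
      · exfalso
        have hle : XC ⊆ (B ++ nb ++ C).toFinset := fun c hc => by
          obtain ⟨g, hg, rfl⟩ := (hXC c).1 hc
          rw [List.mem_toFinset, List.mem_append]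
          exact hcov' g hg
        have hlen : Nat.card X ≤ 2 * B.length + C.length := by
          rw [← hcard]
          refine (Finset.card_le_card hle).trans ((List.toFinset_card_le _).trans ?_)
          simp [nb]; omega
        exact absurd hbig (not_le.2 (lt_of_le_of_lt (Nat.mul_le_mul (hW W' hWb') hlen) h2))
      · refine ih (B ++ nb) W' C h2 (List.mem_append_left _ h1) ?_ ?_ hcov' hWb'
        · intro b hb
          rcases List.mem_append.1 hb with hb | hb
          · exact hB b hb
          · exact (hnb b hb).1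
        · intro g hg h hh hgB hhB
          have key : ∀ x ∈ X, code x ∈ B ++ nb → code x ∈ B ∨ ∃ u ∈ X, code u ∈ B ∧ x = u * gj := by
            intro x hx hxm
            rcases List.mem_append.1 hxm with h | h
            · exact Or.inl h
            · obtain ⟨b, hb, e⟩ := List.mem_map.1 h
              obtain ⟨u, hu, rfl⟩ := hB b hb
              exact Or.inr ⟨u, hu, hb, code_injective (by rw [code_mul, hj, e])⟩
          have out : ∀ u ∈ X, code u ∈ B → code (u * gj) ∈ B ++ nb := fun u _ hu =>
            List.mem_append_right _ (List.mem_map.2 ⟨_, hu, by rw [code_mul, hj]⟩)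
          rcases key g hg hgB with hg' | ⟨u, hu, huB, rfl⟩ <;>
            rcases key h hh hhB with hh' | ⟨w, hw, hwB, rfl⟩
          · exact List.mem_append_left _ (hcl g hg h hh hg' hh')
          · rw [← mul_assoc]
            exact out _ (mul_mem hg hw) (hcl g hg w hw hg' hwB)
          · rw [mul_assoc, hcomm gj hgj h hh, ← mul_assoc]
            exact out _ (mul_mem hu hh) (hcl u hu h hh huB hh')
          · rw [mul_assoc, ← mul_assoc gj, hcomm gj hgj w hw, mul_assoc, hsq gj hgj, mul_one]
            exact List.mem_append_left _ (hcl u hu w hw huB hwB)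

theorem conj_eSub {s : Equiv.Perm GolayPt} (hs : s ∈ grpOf pcS) {g : Equiv.Perm GolayPt}
    (hg : code g ∈ eCodes) : code (s * g * s⁻¹) ∈ eCodes := by
  have hspec := Mathieu.Code.spanSpec _ eList_ok
  have hle : grpOf pcS ≤ Subgroup.normalizer (grpOf eList.reverse : Set (Equiv.Perm GolayPt)) := by
    refine (Subgroup.closure_le _).2 fun x hx => ?_
    obtain ⟨p, hp, he⟩ := List.mem_map.1 hx
    obtain ⟨x', -, hc, hci⟩ := Mathieu.Code.certM24_pc p hp
    have hxx : x' = x := code_injective (hc.trans he)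
    subst hxx
    have h0 := eCodes_normal
    have hsub : ∀ y, code y ∈ eCodes → code (x' * y * x'⁻¹) ∈ eCodes := by
      intro y hy
      have := List.all_eq_true.1 (List.all_eq_true.1 h0 p hp) _ hy
      simpa [code_mul, hc, hci] using this
    have hinj : Function.Injective (MulAut.conj x').toMonoidHom := (MulAut.conj x').injective
    have hmap : (grpOf eList.reverse).map (MulAut.conj x').toMonoidHom = grpOf eList.reverse :=
      Subgroup.eq_of_le_of_card_ge (by
        rintro _ ⟨y, hy, rfl⟩
        exact (hspec.mem_iff _).2 (hsub y ((hspec.mem_iff y).1 hy)))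
        (Subgroup.card_map_of_injective hinj).ge
    rw [SetLike.mem_coe, Subgroup.mem_normalizer_iff]
    intro y
    refine ⟨fun hy => (hspec.mem_iff _).2 (hsub y ((hspec.mem_iff y).1 hy)), fun hy => ?_⟩
    rw [← hmap] at hy
    obtain ⟨y', hy', e⟩ := hy
    exact hinj (e : (MulAut.conj x').toMonoidHom y' = (MulAut.conj x').toMonoidHom y) ▸ hy'
  exact (hspec.mem_iff _).1 ((Subgroup.mem_normalizer_iff.1 (hle hs) g).1 ((hspec.mem_iff g).2 hg))

theorem grpOf_pcS_le : grpOf pcS ≤ Cfsg.M24 := by
  refine (Subgroup.closure_le _).2 fun g hg => ?_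
  obtain ⟨p, hp, he⟩ := List.mem_map.1 hg
  obtain ⟨x, hx, hc, -⟩ := Mathieu.Code.certM24_pc p hp
  exact code_injective (he.symm.trans hc.symm) ▸ hx

theorem pcS_ok : Mathieu.Code.pcOK pcS = true :=
  (Mathieu.Code.Cert.pcOK_all Mathieu.Code.certM24_check).1

/-- The only candidate in the Sylow subgroup. -/
theorem unique_candidate (hsq : ∀ g ∈ X, g * g = 1) (hne : X ≠ ⊥) (hX : X ≤ grpOf pcS)
    (hvec : ∀ y ∈ W, vecOK y = true) (hfix : ∀ g ∈ X, ∀ y ∈ W, act (code g) y = y)
    (hbig : 1024 ≤ W.card * Nat.card X) : ∀ g, g ∈ X ↔ code g ∈ eCodes := by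
  classical
  have hS := Mathieu.Code.spanSpec _ pcS_ok
  have hord : ∀ g ∈ grpOf pcS, g * g = 1 → g ≠ 1 → ∃ k < 191, ordList.getD k 0 = code g := by
    intro g hg hgg hg1
    have hin : code g ∈ invS := by
      refine List.mem_filter.2 ⟨(hS.mem_iff g).1 hg, ?_⟩
      rw [← code_mul, hgg, code_one]
      simp only [beq_self_eq_true, Bool.and_true, bne_iff_ne, ne_eq, ← code_one,
        code_injective.eq_iff, hg1, not_false_eq_true]
    have := List.all_eq_true.1 ord_complete _ hin
    rw [List.contains_eq_mem, decide_eq_true_eq] at this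
    obtain ⟨k, hk, e⟩ := List.getElem_of_mem this
    exact ⟨k, positions_ok.2 ▸ hk, by simp [List.getD_eq_getElem?_getD, List.getElem?_eq_getElem hk, e]⟩
  let P : ℕ → Prop := fun k => k < 191 ∧ ∃ s ∈ grpOf pcS, ∃ g ∈ X, g ≠ 1 ∧
    code (s * g * s⁻¹) = ordList.getD k 0
  have hex : ∃ k, P k := by
    obtain ⟨g, hg, hg1⟩ := (X.ne_bot_iff_exists_ne_one.1 hne : ∃ g : X, g ≠ 1) |>
      fun ⟨g, h⟩ => (⟨(g : Equiv.Perm GolayPt), g.2, fun e => h (Subtype.ext e)⟩ : ∃ g, g ∈ X ∧ g ≠ 1)
    obtain ⟨k, hk, e⟩ := hord g (hX hg) (hsq g hg) hg1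
    exact ⟨k, hk, 1, one_mem _, g, hg, hg1, by simpa using e.symm⟩
  obtain ⟨hk, s, hs, gk, hgk, hgk1, hgkc⟩ := Nat.find_spec hex
  set k := Nat.find hex
  have hroot : k ∈ rootList := by
    have := List.all_eq_true.1 positions_ok.1 k (List.mem_range.2 hk)
    simp only [Bool.or_eq_true, List.contains_eq_mem, decide_eq_true_eq] at this
    refine this.resolve_right fun hw => ?_
    obtain ⟨q, hq, e⟩ := List.mem_map.1 hw
    have := List.all_eq_true.1 wit_ok q hq
    simp only [Bool.and_eq_true, decide_eq_true_eq, beq_iff_eq, e] at this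
    obtain ⟨⟨⟨h1, h2⟩, h3⟩, h4⟩ := this
    obtain ⟨hua, hub⟩ := Mathieu.Code.code_permOf _ _ h2
    set u := Mathieu.Code.permOf _ _ h2
    have huS : u ∈ grpOf pcS := (hS.mem_iff u).2 (by rw [hua, ← h1]; exact wordE_mem _ _)
    refine Nat.find_min hex h3 ⟨by omega, u * s, mul_mem huS hs, gk, hgk, hgk1, ?_⟩
    rw [show u * s * gk * (u * s)⁻¹ = u * (s * gk * s⁻¹) * u⁻¹ by group, code_mul, code_mul, hgkc,
      hua, hub, h4]
  set X' := X.map (MulAut.conj s).toMonoidHom with hX'def
  have hinj : Function.Injective (MulAut.conj s).toMonoidHom := (MulAut.conj s).injective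
  let fW : ℕ → ℕ := fun y => act (code s) y
  have hfW : Set.InjOn fW (W : Set ℕ) := by
    intro a ha b hb e
    have := congrArg (act (code s⁻¹)) e
    have hsM := grpOf_pcS_le hs
    simp only [fW, act_act (inv_mem hsM), inv_mul_cancel] at this
    rwa [act_one (hvec a ha), act_one (hvec b hb)] at this
  set gj := s * gk * s⁻¹
  have hgj : gj ∈ X' := ⟨gk, hgk, rfl⟩
  have hfix' : ∀ g ∈ X', ∀ y ∈ W.image fW, act (code g) y = y := by
    rintro _ ⟨g, hg, rfl⟩ y hy
    obtain ⟨y0, hy0, rfl⟩ := Finset.mem_image.1 hy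
    have hsM := grpOf_pcS_le hs
    have hgM := grpOf_pcS_le (hX hg)
    show act (code (s * g * s⁻¹)) (act (code s) y0) = act (code s) y0
    rw [act_act (mul_mem (mul_mem hsM hgM) (inv_mem hsM)), inv_mul_cancel_right, ← act_act hsM,
      hfix g hg y0 hy0]
  have hvec' : ∀ y ∈ W.image fW, vecOK y = true := by
    intro y hy
    obtain ⟨y0, hy0, rfl⟩ := Finset.mem_image.1 hy
    exact vec_act s (hvec y0 hy0)
  have hbig' : 1024 ≤ (W.image fW).card * Nat.card X' := by
    rwa [Finset.card_image_of_injOn hfW, hX'def, Subgroup.card_map_of_injective hinj]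
  have hsq' : ∀ g ∈ X', g * g = 1 := by
    rintro _ ⟨g, hg, rfl⟩
    rw [← map_mul, hsq g hg, map_one]
  have hlater : ∀ g ∈ X', g = 1 ∨ g = gj ∨ code g ∈ ordList.drop (k + 1) := by
    rintro _ ⟨g, hg, rfl⟩
    by_cases hg1 : g = 1
    · exact Or.inl (by rw [hg1, map_one])
    have hgS : s * g * s⁻¹ ∈ grpOf pcS := mul_mem (mul_mem hs (hX hg)) (inv_mem hs)
    obtain ⟨i, hi, e⟩ := hord _ hgS (hsq' _ ⟨g, hg, rfl⟩) (fun e => hg1 (hinj (by rw [map_one]; exact e)))
    rcases lt_trichotomy i k with hlt | heq | hgt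
    · exact absurd ⟨hi, s, hs, g, hg, hg1, e.symm⟩ (Nat.find_min hex hlt)
    · exact Or.inr (Or.inl (code_injective (by rw [hgkc, ← heq, e]; rfl)))
    · refine Or.inr (Or.inr ?_)
      show code (s * g * s⁻¹) ∈ _
      rw [← e, List.mem_iff_getElem]
      have hl := positions_ok.2
      refine ⟨i - (k + 1), by rw [List.length_drop, hl]; omega, ?_⟩
      rw [List.getElem_drop, List.getD_eq_getElem?_getD, List.getElem?_eq_getElem (by omega)]
      simp [show k + 1 + (i - (k + 1)) = i by omega]
  have hrk := search_root hroot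
  simp only [rootOK, forceL_eq, Bool.or_eq_true, decide_eq_true_eq] at hrk
  rw [← hgkc] at hrk
  set rest := (ordList.drop (k + 1)).filter fun c => commC (code gj) c with hrest
  have hcomm : ∀ g ∈ X', gj * g = g * gj := fun g hg =>
    calc gj * g = (gj * g)⁻¹ := (inv_eq_of_mul_eq_one_right (hsq' _ (mul_mem hgj hg))).symm
      _ = g * gj := by
        rw [mul_inv_rev, inv_eq_of_mul_eq_one_right (hsq' _ hgj),
          inv_eq_of_mul_eq_one_right (hsq' g hg)]
  have hcov : ∀ g ∈ X', code g ∈ [idC, code gj] ∨ code g ∈ rest := by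
    intro g hg
    rcases hlater g hg with rfl | rfl | h
    · exact Or.inl (by simp [code_one])
    · exact Or.inl (by simp)
    · exact Or.inr (List.mem_filter.2 ⟨h, commC_of_eq (hcomm g hg)⟩)
  have hWb : ∀ y ∈ W.image fW, Sp1 (fixStep (code gj) evenBasis) y := fun y hy =>
    fixStep_spec (sp1_even (hvec' y hy)) (hfix' gj hgj y hy)
  have main : ∀ g, g ∈ X' ↔ code g ∈ eCodes := by
    rcases hrk with hsmall | hdfs
    · exfalso
      have h1 : (W.image fW).card ≤ 2 ^ (fixStep (code gj) evenBasis).length := by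
        rw [← spanList_length]
        exact (Finset.card_le_card (fun y hy => List.mem_toFinset.2 (sp1_mem (hWb y hy)))).trans
          (List.toFinset_card_le _)
      have h2 : Nat.card X' ≤ 2 + rest.length := by
        have hle : ((X' : Set (Equiv.Perm GolayPt)).toFinite.toFinset.image code) ⊆
            ([idC, code gj] ++ rest).toFinset := fun c hc => by
          obtain ⟨g, hg, rfl⟩ := Finset.mem_image.1 hc
          rw [List.mem_toFinset, List.mem_append]
          exact hcov g (by simpa using hg)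
        have := (Finset.card_le_card hle).trans (List.toFinset_card_le _)
        rw [Finset.card_image_of_injective _ code_injective, ← Set.ncard_eq_toFinset_card,
          ← Nat.card_coe_set_eq] at this
        simp only [List.length_append, List.length_cons, List.length_nil] at this
        omega
      exact absurd hbig' (not_le.2 (lt_of_le_of_lt (Nat.mul_le_mul h1 h2) hsmall))
    · refine dfs_spec X' _ hsq' hfix' hbig' 7 [idC, code gj] (fixStep (code gj) evenBasis) rest hdfs
        List.mem_cons_self ?_ ?_ hcov hWb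
      · intro b hb
        simp only [List.mem_cons, List.not_mem_nil, or_false] at hb
        rcases hb with rfl | rfl
        exacts [⟨1, one_mem _, code_one⟩, ⟨gj, hgj, rfl⟩]
      · intro g _ h _ hg hh
        simp only [List.mem_cons, List.not_mem_nil, or_false, ← code_one,
          code_injective.eq_iff] at hg hh ⊢
        rcases hg with rfl | rfl <;> rcases hh with rfl | rfl <;> simp [hsq' gj hgj]
  intro g
  constructor
  · intro hg
    have := conj_eSub (inv_mem hs) ((main _).1 ⟨g, hg, rfl⟩)
    simpa [mul_assoc] using this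
  · intro hg
    obtain ⟨g', hg', e⟩ := (main (s * g * s⁻¹)).2 (conj_eSub hs hg)
    exact hinj (e : (MulAut.conj s).toMonoidHom g' = (MulAut.conj s).toMonoidHom g) ▸ hg'

end CfsgLib.J4Ten31
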